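/-
A simple group whose class of involutions has the local structure of the class of `Fi₂₂`.
-/
import Cfsg.Agent.Spor.S22E
import Cfsg.Agent.SporChar.FiGIso
import Cfsg.Agent.SporChar.FiT23A

set_option autoImplicit false

namespace Cfsg.Lib.Spor.U62

open TQ U6 FT Equiv

variable {G Y : Type*} [Group G] [TQ Y]

/-- `E` is a component of the class `D` -/
structure Cp (D E : Set G) : Prop where
  sub : E ⊆ D
  tt : IsTT E
  cls : ∀ x ∈ E, ∀ y ∈ D, Commute x y → y ∈ E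
  cen : ∀ x ∈ E, ∀ g, Commute g x → g ∈ Subgroup.normalizer E
  cnj : ∀ x ∈ D, ∀ y, y ∈ D ↔ IsConj x y
  trn : ∀ x ∈ E, ∀ y ∈ E, ∃ g ∈ Subgroup.normalizer E, g * x * g⁻¹ = y
  fp : ∀ z ∈ Subgroup.normalizer E, z * z = 1 → ∃ x ∈ E, Commute z x
  r3 : ∀ t, T2 E t → t ∉ D
  r4 : ∀ a ∈ E, ∀ b ∈ E, ∀ c ∈ E, ∀ e ∈ E, a ≠ b → Commute a b → Commute a c → a * b = c * e → c = a ∨ c = b
  odd : ∀ a ∈ E, ∀ b ∈ E, a ≠ b → Commute a b → ∃ l : List G, Odd l.length ∧ l.prod = 1 ∧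
    ∀ x ∈ l, x ∈ E ∧ Commute x a ∧ Commute x b ∧ ∀ y ∈ l, Commute x y
  wide : ∃ t, T2 E t
  hex : ∀ a ∈ E, ∀ b ∈ E, ∀ f ∈ E, a ≠ b → f ≠ a → f ≠ b → Commute a b → Commute f a → Commute f b →
    ∃ s ∈ E, s ≠ a ∧ Commute s a ∧ Commute s b ∧ Commute s f ∧ ∀ f' ∈ E, f' ≠ a → f' ≠ s → Commute f' a →
      Commute f' b → Commute f' f → Commute f' s → T2 E (a * b * f * f') → T2 E (s * f' * b * f)

namespace Cp

variable {D E : Set G} (C : Cp D E)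
include C

theorem sq {x : G} (hx : x ∈ D) : x * x = 1 := by
  obtain ⟨_, u, hu, -⟩ := C.wide
  obtain ⟨g, rfl⟩ := isConj_iff.1 ((C.cnj u (C.sub hu) x).1 hx)
  rw [conj_mul, tt_mul_self C.tt.set hu, mul_one, mul_inv_cancel]

theorem conjD (g : G) {x : G} (hx : x ∈ D) : g * x * g⁻¹ ∈ D := (C.cnj x hx _).2 (isConj_iff.2 ⟨g, rfl⟩)

theorem conjE {g x : G} (hg : g ∈ Subgroup.normalizer E) (hx : x ∈ E) : g * x * g⁻¹ ∈ E :=
  (Subgroup.mem_set_normalizer_iff.1 hg x).1 hx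

theorem mem {x : G} (hx : x ∈ E) : x ∈ Subgroup.normalizer E :=
  have := C.tt
  IsTT.mem_normalizer hx

theorem k1 {y : G} (hy : y ∈ D) (h : y ∈ Subgroup.normalizer E) : y ∈ E :=
  let ⟨x, hx, hc⟩ := C.fp y h (C.sq hy); C.cls x hx y hy hc.symm

theorem k4 {g x : G} (hx : x ∈ E) (h : g * x * g⁻¹ ∈ E) : g ∈ Subgroup.normalizer E := by
  obtain ⟨u, hu, e⟩ := C.trn _ h x hx
  have := C.cen x hx (u * g) (mul_inv_eq_iff_eq_mul.1 (Eq.trans (by group) e))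
  rwa [mul_mem_cancel_left hu] at this

theorem T2_sq {t : G} (h : T2 E t) : t * t = 1 := by
  obtain ⟨u, hu, v, hv, -, h, rfl⟩ := h
  rw [← pow_two, sq_of_commute (C.sq (C.sub hu)) (C.sq (C.sub hv)) h]

theorem T2_mem {t : G} (h : T2 E t) : t ∈ Subgroup.normalizer E := by
  obtain ⟨u, hu, v, hv, -, -, rfl⟩ := h
  exact mul_mem (C.mem hu) (C.mem hv)

theorem T2_conj {g t : G} (hg : g ∈ Subgroup.normalizer E) (h : T2 E t) : T2 E (g * t * g⁻¹) := by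
  obtain ⟨u, hu, v, hv, h1, h2, rfl⟩ := h
  exact ⟨_, C.conjE hg hu, _, C.conjE hg hv, fun e => h1 ((MulAut.conj g).injective e),
    (Commute.conj_iff g).2 h2, (conj_mul).symm⟩

variable [Finite G]

theorem k2 {g t : G} (h : T2 E t) (hg : Commute g t) : g ∈ Subgroup.normalizer E := by
  have ht := C.T2_sq h
  have hD := C.r3 t h
  have hm := C.T2_mem h
  obtain ⟨a, ha, b, hb, h1, h2, e⟩ := h
  have ht' : dC t * dC t = 1 := Subtype.ext ht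
  have hc : ∀ u : Subgroup.centralizer {t}, Commute (u : G) t := fun u =>
    Subgroup.mem_centralizer_singleton_iff.1 u.2
  have : (Subgroup.zpowers (dC t)).Normal := ⟨fun x hx u => by
    rcases eq_or_of_mem_zpowers ht' hx with rfl | rfl
    · simp
    · rwa [show u * dC t = dC t * u from Subtype.ext (hc u), mul_inv_cancel_right]⟩
  let φ := QuotientGroup.mk' (Subgroup.zpowers (dC t))
  have hφ : ∀ x y, φ x = φ y → (y : G) = x ∨ (y : G) = x * t := fun x y h =>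
    (eq_or_of_mem_zpowers ht' (QuotientGroup.eq.1 h)).imp
      (fun h => congrArg Subtype.val (inv_mul_eq_one.1 h).symm)
      fun h => congrArg Subtype.val (inv_mul_eq_iff_eq_mul.1 h)
  have h3 : ∀ x u : Subgroup.centralizer {t}, x.1 ∈ E → IsConj x.1 (u * x * u⁻¹ : Subgroup.centralizer {t}) →
      Commute (φ x) (φ u) → u.1 ∈ Subgroup.normalizer E := fun x u hx h4 h5 => by
    refine C.k4 hx (C.cls _ hx _ (C.conjD _ (C.sub hx)) ?_)
    rcases hφ x (u * x * u⁻¹) (by rw [map_mul, map_mul, map_inv, ← h5.eq, mul_inv_cancel_right]) with h | h <;>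
      rw [show (u : G) * x * (u : G)⁻¹ = _ from h]
    exact (Commute.refl _).mul_right (hc x)
  have h4 : ∀ x : Subgroup.centralizer {t}, x.1 ∈ E → φ x * φ x = 1 ∧ φ x ≠ 1 ∧ Subgroup.centralizer {φ x} ≤
      ((Subgroup.normalizer E).subgroupOf _).map φ := fun x hx => by
    refine ⟨by rw [← map_mul, show x * x = 1 from Subtype.ext (C.sq (C.sub hx)), map_one], fun h => ?_,
      fun u hu => ?_⟩
    · rcases hφ 1 x h.symm with h | h
      · exact tt_ne_one C.tt.set hx h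
      · exact hD (by rw [← one_mul t]; exact h ▸ C.sub hx)
    · obtain ⟨u, rfl⟩ := QuotientGroup.mk_surjective u
      exact ⟨u, h3 x u hx (isConj_iff.2 ⟨u, rfl⟩) (Subgroup.mem_centralizer_singleton_iff.1 hu).symm, rfl⟩
  have hL : ∀ x, Commute x a → Commute x b → x ∈ Subgroup.centralizer {t} := fun x h1 h2 =>
    Subgroup.mem_centralizer_singleton_iff.2 (e ▸ h1.mul_right h2)
  let a' : Subgroup.centralizer {t} := ⟨a, hL a (Commute.refl a) h2⟩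
  obtain ⟨l, l1, l2, l3⟩ := C.odd a ha b hb h1 h2
  have h5 := eq_top_of_isolated (z := φ a') ⟨orderOf_eq_prime (pow_two (φ a') ▸ (h4 a' ha).1) (h4 a' ha).2.1, ?_⟩
    (h4 a' ha).2.2 (l := l.attach.map fun x => φ ⟨x.1, hL _ (l3 _ x.2).2.1 (l3 _ x.2).2.2.1⟩) (by simpa using l1)
    ?_ ?_
  · obtain ⟨u, hu, h6⟩ : φ ⟨g, Subgroup.mem_centralizer_singleton_iff.2 hg⟩ ∈
      ((Subgroup.normalizer E).subgroupOf _).map φ := h5 ▸ Subgroup.mem_top _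
    rcases hφ _ _ h6 with h | h <;> rw [show g = _ from h]
    exacts [hu, mul_mem hu hm]
  · intro u hu
    obtain ⟨u, rfl⟩ := QuotientGroup.mk_surjective u
    have h6 := C.k1 (C.conjD u (C.sub ha)) (h3 a' (u * a' * u⁻¹) ha (isConj_iff.2 ⟨_, rfl⟩) hu)
    have h7 := tt_commute_mul_iff C.tt.set ha hb h6 h1 (e ▸ hc (u * a' * u⁻¹)) h2
    rcases C.r4 a ha b hb _ h6 _ (C.cls _ h6 _ (C.conjD u (C.sub hb)) ((Commute.conj_iff _).2 h2)) h1 h2
      h7.1.symm (by rw [conj_mul, ← e, (hc u).eq, mul_inv_cancel_right]) with h | h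
    · exact congrArg φ (Subtype.ext h : u * a' * u⁻¹ = a')
    · refine (QuotientGroup.eq (a := u * a' * u⁻¹)).2 ?_
      rw [show (u * a' * u⁻¹)⁻¹ * a' = dC t from Subtype.ext (by
        show ((u : G) * a * (u : G)⁻¹)⁻¹ * a = t
        rw [h, tt_inv C.tt.set hb, e, h2.eq])]
      exact Subgroup.mem_zpowers _
  · rw [show (fun x : {x // x ∈ l} => φ ⟨x.1, hL _ (l3 _ x.2).2.1 (l3 _ x.2).2.2.1⟩) = φ ∘ _ from rfl,
      ← List.map_map, ← map_list_prod, ← map_one φ]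
    refine congrArg φ (Subtype.ext ?_)
    rw [Subgroup.val_list_prod, List.map_map]
    simpa [Function.comp_def] using l2
  · intro x hx
    obtain ⟨x, -, rfl⟩ := List.mem_map.1 hx
    refine ⟨(h4 _ (l3 _ x.2).1).1, (h4 _ (l3 _ x.2).1).2.1, (h4 _ (l3 _ x.2).1).2.2, fun y hy => ?_⟩
    obtain ⟨y, -, rfl⟩ := List.mem_map.1 hy
    refine Commute.map ?_ φ
    exact Subtype.ext ((l3 _ x.2).2.2.2 _ y.2)

theorem k3 {g t : G} (h : T2 E t) (hg : g * t * g⁻¹ ∈ Subgroup.normalizer E) : g ∈ Subgroup.normalizer E := by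
  obtain ⟨y, hy, h1⟩ := C.fp _ hg (by rw [conj_mul, C.T2_sq h, mul_one, mul_inv_cancel])
  have h2 : g * (g⁻¹ * y * g⁻¹⁻¹) * g⁻¹ = y := by group
  exact C.k4 (C.k1 (C.conjD g⁻¹ (C.sub hy)) (C.k2 h ((Commute.conj_iff g).1 (h2.symm ▸ h1.symm)))) (h2.symm ▸ hy)

theorem step {e a b : G} (he : e ∈ D) (hn : e ∉ E) (ha : a ∈ E) (hb : b ∈ E) (h1 : a ≠ b) (h2 : Commute a b) :
    ∃ f ∈ E, f ≠ a ∧ f ≠ b ∧ Commute f a ∧ Commute f b ∧ Commute (a * b * f) e ∧ IsConj (a * b) (a * b * f * e) ∧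
      ∃ k, f = k * e * k⁻¹ ∧ ∀ w, Commute w (a * b) → Commute w e → Commute w k := by
  have hT : T2 E (a * b) := ⟨a, ha, b, hb, h1, h2, rfl⟩
  obtain ⟨z, k, z1, z2, z3, z4, z5, z6 | ⟨z6, z7⟩⟩ := dihedral (C.T2_sq hT) (C.sq he)
    fun h => C.r3 _ hT ((C.cnj e he _).2 h.symm)
  · obtain ⟨g, rfl⟩ := isConj_iff.1 ((C.cnj a (C.sub ha) e).1 he)
    have h3 : g * (g⁻¹ * (z * (g * a * g⁻¹)) * g⁻¹⁻¹) * g⁻¹ = z * (g * a * g⁻¹) := by group
    have h4 : Commute a (g⁻¹ * (z * (g * a * g⁻¹)) * g⁻¹⁻¹) :=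
      (Commute.conj_iff g).1 (h3.symm ▸ z4.symm.mul_right (Commute.refl _))
    refine absurd (C.conjE (C.k3 ⟨_, C.cls a ha _ (C.conjD _ (z6 ▸ C.conjD k he)) h4, a, ha, fun h => z1 ?_,
      h4.symm, rfl⟩ ?_) ha) hn
    · rw [h] at h3; simpa using h3
    · rw [← conj_mul, h3, mul_assoc, C.sq he, mul_one]; exact C.k2 hT z3
  · have h3 := C.k1 (z6 ▸ C.conjD k he) (mul_mem (C.k2 hT z3) (C.T2_mem hT))
    have h4 := tt_commute_mul_iff C.tt.set ha hb h3 h1 (z3.mul_left (Commute.refl _)) h2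
    have h5 : a * b * (z * (a * b)) = z := by rw [z3.eq, ← mul_assoc, C.T2_sq hT, one_mul]
    refine ⟨_, h3, fun h => hn (C.cls b hb e he ?_), fun h => hn (C.cls a ha e he ?_), h4.1, h4.2, h5.symm ▸ z4,
      h5.symm ▸ z7, k, z6, z5⟩
    · rwa [← h5, h, h2.eq, mul_assoc, C.sq (C.sub ha), mul_one] at z4
    · rwa [← h5, h, mul_assoc, C.sq (C.sub hb), mul_one] at z4

/-- The component is the class. -/
theorem eq : E = D := by
  refine C.sub.antisymm fun e he => by_contra fun hn => ?_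
  obtain ⟨_, a, ha, b, hb, h1, h2, -⟩ := C.wide
  obtain ⟨f, hf, f1, f2, f3, f4, f5, f6, -⟩ := C.step he hn ha hb h1 h2
  obtain ⟨s, hs, s1, s2, s3, s4, s5⟩ := C.hex a ha b hb f hf h1 f1 f2 h2 f3 f4
  obtain ⟨f', hf', g1, g2, g3, g4, g5, -, k, g6, g7⟩ := C.step he hn ha hs s1.symm s2.symm
  have h3 := g7 _ ((((Commute.refl a).mul_left h2.symm).mul_left f3).mul_right
    ((s2.symm.mul_left s3.symm).mul_left s4.symm)) f5
  have h4 : a * b * f * f' = k * (a * b * f * e) * k⁻¹ := by rw [g6, ← mul_assoc, ← mul_assoc, h3.eq]; group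
  have h5 : Commute f' (a * b * f) := by
    rw [g6]; exact ((h3.mul_right f5).mul_right h3.inv_right).symm
  have h6 := tt_commute_mul_iff C.tt.set hb hf hf' f2.symm (by
    have := g3.inv_right.mul_right h5
    rwa [mul_assoc, inv_mul_cancel_left] at this) f4.symm
  obtain ⟨j, hj⟩ := isConj_iff.1 f6
  have h7 : a * b * f * f' = k * j * (a * b) * (k * j)⁻¹ := by rw [h4, ← hj]; group
  have hT : T2 E (a * b) := ⟨a, ha, b, hb, h1, h2, rfl⟩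
  have h8 := s5 f' hf' g1 g2 g3 h6.1 h6.2 g4 (h7 ▸ C.T2_conj (C.k3 hT (h7 ▸ mul_mem (mul_mem (C.T2_mem hT)
    (C.mem hf)) (C.mem hf'))) hT)
  refine hn (C.k1 he (C.k2 h8 ?_))
  have := (g5.mul_left f5).symm
  rwa [show a * s * f' * (a * b * f) = s * f' * b * f by
    rw [mul_assoc a s, ← (s2.mul_left g3).eq, mul_assoc, mul_assoc a b, ← mul_assoc a, C.sq (C.sub ha), one_mul,
      ← mul_assoc]] at this

end Cp

/-- the members of `D` commuting with `c` -/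
structure Lc (D : Set G) (c : G) (a : Y → G) : Prop extends Rl c a where
  mem : ∀ x, x ∈ Set.range a ↔ x ∈ D ∧ x ≠ c ∧ Commute c x

theorem Lc.conj {D : Set G} {c : G} {a : Y → G} (h : Lc D c a) (hD : ∀ g, ∀ x ∈ D, g * x * g⁻¹ ∈ D) (u : G) :
    Lc D (u * c * u⁻¹) fun y => u * a y * u⁻¹ := by
  refine ⟨h.toRl.map (φ := (MulAut.conj u).toMonoidHom) (MulAut.conj u).injective, fun x => ?_⟩
  obtain ⟨x, rfl⟩ : ∃ y, u * y * u⁻¹ = x := (MulAut.conj u).surjective x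
  rw [Commute.conj_iff, show u * x * u⁻¹ ∈ D ↔ x ∈ D from ⟨fun h => by simpa [mul_assoc] using hD u⁻¹ _ h,
    hD u x⟩, ne_eq, mul_left_inj, mul_right_inj, ← ne_eq, ← h.mem]
  simp

theorem Lc.all {d : G} {a : Y → G} (h : Lc (conjugatesOf d) d a) :
    ∀ c ∈ conjugatesOf d, ∃ a : Y → G, Lc (conjugatesOf d) c a := fun _ hc =>
  let ⟨u, e⟩ := isConj_iff.1 hc; ⟨_, e ▸ h.conj conj_mem_conjugatesOf u⟩

namespace Lc

variable {D : Set G} {r c : G} {a a' : Y → G} {x x' : Y} (L : Lc D r a) (L' : Lc D c a')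
include L L'

theorem tr (e : a x = c) (e' : a' x' = r) {y : Y} (hy : y ∈ dperp x) : ∃ u ∈ dperp x', a' u = a y := by
  obtain ⟨h1, h2, h3⟩ := (L.mem _).1 ⟨y, rfl⟩
  obtain ⟨u, hu⟩ := (L'.mem _).2 ⟨h1, e ▸ L.inj.ne hy.1, e ▸ L.rep.commute_iff.2 hy.2⟩
  exact ⟨u, ⟨fun h => h2 (by rw [← hu, h, e']), L'.rep.commute_iff.1 (by rwa [e', hu])⟩, hu⟩

theorem col (e : a x = c) (e' : a' x' = r) {y y' u u' : Y} (h : a' u = a y) (h' : a' u' = a y')
    (hc : Col x' u u') : Col x y y' := fun z hz => by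
  obtain ⟨w, h1, h2⟩ := L.tr L' e e' hz
  rw [← L.rep.commute_iff, ← L.rep.commute_iff, ← h, ← h', ← h2, L'.rep.commute_iff, L'.rep.commute_iff]
  exact hc w h1

omit L' in
theorem secSub (hS : ∀ x y : Y, ¬ x ⫫ y → SectAt x y) (hl : ∀ c ∈ D, ∃ a : Y → G, Lc D c a) (hr : r ∈ D)
    {p : G} (hp : p ∈ D) (hn : ¬ Commute r p) : SecSub {x | Commute (a x) p} := by
  have key : ∀ x, Commute (a x) p → ∃ a' : Y → G, Lc D (a x) a' ∧ ∃ r' p', a' r' = r ∧ a' p' = p ∧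
      SectAt r' p' := fun x hx => by
    obtain ⟨h1, h2, h3⟩ := (L.mem _).1 ⟨x, rfl⟩
    obtain ⟨a', L'⟩ := hl _ h1
    obtain ⟨r', e1⟩ := (L'.mem r).2 ⟨hr, h2.symm, h3.symm⟩
    obtain ⟨p', e2⟩ := (L'.mem p).2 ⟨hp, fun e => hn (e ▸ h3), hx⟩
    exact ⟨a', L', r', p', e1, e2, hS _ _ fun h => hn (e1 ▸ e2 ▸ L'.rep.commute_iff.2 h)⟩
  refine ⟨⟨fun x hx y hy => ?_⟩, fun x hx y hy => ?_, fun x hx y hy y' hy' h1 h2 h3 => ?_⟩
  · rw [Set.mem_setOf_eq, L.rep.map_act]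
    exact Commute.mul_left (Commute.mul_left hx hy) (Commute.inv_left hx)
  · obtain ⟨a', L', r', p', e1, e2, S⟩ := key x hx
    obtain ⟨u, h1, h2⟩ := L.tr L' rfl e1 hy
    obtain ⟨u', h3, h4, h5⟩ := S.1 u h1
    obtain ⟨y', h6, h7⟩ := L'.tr L e1 rfl h3
    exact ⟨y', show Commute (a y') p from h7 ▸ e2 ▸ L'.rep.commute_iff.2 h4, h6, L.col L' rfl e1 h2 h7.symm h5⟩
  · obtain ⟨a', L', r', p', e1, e2, S⟩ := key x hx
    obtain ⟨u, h4, h5⟩ := L.tr L' rfl e1 h1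
    obtain ⟨u', h6, h7⟩ := L.tr L' rfl e1 h2
    refine L.inj (h5.symm.trans ((congrArg a' (S.2 u h4 u' h6 (L'.rep.commute_iff.1 ?_) (L'.rep.commute_iff.1 ?_)
      (L'.col L e1 rfl h5.symm h7.symm h3))).trans h7))
    exacts [by rw [h5, e2]; exact hy, by rw [h7, e2]; exact hy']

end Lc

theorem Lc.dl_of {D : Set G} (hl : ∀ c ∈ D, ∃ a : Y → G, Lc D c a) (h : ∀ r ∈ D, ∀ a : Y → G, Lc D r a →
    ∀ p ∈ D, ¬ Commute r p → ∀ x y, Commute (a x) p → ∃ z, Commute (a z) p ∧ z ⫫ y) :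
    ∀ p ∈ D, ∀ q ∈ D, ∀ r ∈ D, ∀ s ∈ D, Commute p q → Commute q r → Commute r s →
      ∃ c ∈ D, Commute p c ∧ Commute c s := by
  intro p hp q hq r hr s hs h1 h2 h3
  by_cases h4 : Commute r p
  · exact ⟨r, hr, h4.symm, h3⟩
  by_cases h5 : s = r
  · exact ⟨q, hq, h1, h5 ▸ h2⟩
  obtain ⟨a, L⟩ := hl r hr
  obtain ⟨x, rfl⟩ := (L.mem q).2 ⟨hq, fun e => h4 (e ▸ h1.symm), h2.symm⟩
  obtain ⟨y, rfl⟩ := (L.mem s).2 ⟨hs, h5, h3⟩
  obtain ⟨z, h6, h7⟩ := h r hr a L p hp h4 x y h1.symm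
  exact ⟨_, ((L.mem _).1 ⟨z, rfl⟩).1, h6.symm, L.rep.commute_iff.2 h7⟩

open scoped S22 in
theorem fix22 [Finite Y] (h : T22 Y) {σ : Perm Y} (hσ : σ ∈ Aut Y) (h2 : σ * σ = 1) : ∃ x, σ x = x := by
  obtain ⟨e1⟩ := FG.T22_iso h
  obtain ⟨e2⟩ := FG.T22_iso S22.t22
  let e := e1.symm.trans e2
  have h3 : e.toEquiv.permCongrHom σ * e.toEquiv.permCongrHom σ = 1 := by rw [← map_mul, h2, map_one]
  obtain ⟨y, hy⟩ : ∃ y, e.toEquiv.permCongrHom σ y = y := by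
    by_cases c : e.toEquiv.permCongrHom σ ∈ F22.E
    · by_contra! n
      exact absurd (c.symm.trans (sign_of_free h3 n (by simp))) (by decide)
    · refine (S22.odd_pts (S22.aut_eq ▸ fun x y => ?_) h3 c).imp fun _ ⟨_, k, _⟩ => k
      change e.toEquiv (σ (e.symm.toEquiv _)) = e.toEquiv (σ (e.symm.toEquiv x)) ▹ e.toEquiv (σ (e.symm.toEquiv y))
      rw [e.symm.map_act, hσ, e.map_act]
  exact ⟨e.toEquiv.symm y, e.toEquiv.eq_symm_apply.2 hy⟩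

/-- the global hypotheses -/
structure Gb (Y : Type*) [TQ Y] (d : G) : Prop where
  prim : Prim Y
  wide : Wide Y
  d2 : d * d = 1
  d1 : d ≠ 1
  loc : ∀ c ∈ conjugatesOf d, ∃ a : Y → G, Lc (conjugatesOf d) c a
  dl : ∀ p ∈ conjugatesOf d, ∀ q ∈ conjugatesOf d, ∀ r ∈ conjugatesOf d, ∀ s ∈ conjugatesOf d,
    Commute p q → Commute q r → Commute r s → ∃ c ∈ conjugatesOf d, Commute p c ∧ Commute c s

namespace Gb

variable {d : G} (H : Gb Y d)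
include H

theorem cls {x y : G} (hx : x ∈ E0 d) (hy : y ∈ conjugatesOf d) (h : Commute x y) : y ∈ E0 d :=
  let ⟨h1, c, h2, h3, h4⟩ := hx; ⟨hy, H.dl d (IsConj.refl d) c h2 x h1 y hy h3 h4 h⟩

theorem sub {c : G} {a : Y → G} (L : Lc (conjugatesOf d) c a) (hc : c ∈ E0 d) : Set.range a ⊆ E0 d :=
  fun x hx => H.cls hc ((L.mem x).1 hx).1 ((L.mem x).1 hx).2.2

theorem near {x y : G} (hx : x ∈ E0 d) (hy : y ∈ E0 d) : ∃ c ∈ E0 d, ∃ a : Y → G,
    Lc (conjugatesOf d) c a ∧ x ∈ Set.range a ∧ y ∈ Set.range a := by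
  suffices ∃ c ∈ conjugatesOf d, x ≠ c ∧ y ≠ c ∧ Commute c x ∧ Commute c y by
    obtain ⟨c, h1, h2, h3, h4, h5⟩ := this
    obtain ⟨a, L⟩ := H.loc c h1
    exact ⟨c, H.cls hx h1 h4.symm, a, L, (L.mem x).2 ⟨hx.1, h2, h4⟩, (L.mem y).2 ⟨hy.1, h3, h5⟩⟩
  by_cases h : Commute x y
  · obtain ⟨a, L⟩ := H.loc x hx.1
    have := H.prim.nontrivial
    obtain ⟨y0, e⟩ : ∃ y0, y = x ∨ y = a y0 := by
      by_cases e : y = x
      · exact ⟨Classical.arbitrary Y, Or.inl e⟩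
      · exact ((L.mem y).2 ⟨hy.1, e, h⟩).imp fun _ h => Or.inr h.symm
    obtain ⟨z, hz⟩ := H.wide.exists_dperp H.prim.conn y0
    obtain ⟨h1, h2, h3⟩ := (L.mem _).1 ⟨z, rfl⟩
    rcases e with rfl | rfl
    · exact ⟨_, h1, h2.symm, h2.symm, h3.symm, h3.symm⟩
    · exact ⟨_, h1, h2.symm, L.inj.ne hz.1.symm, h3.symm, (L.rep.commute_iff.2 hz.2).symm⟩
  · obtain ⟨h1, c, h2, h3, h4⟩ := hx
    obtain ⟨h1', c', h2', h3', h4'⟩ := hy
    obtain ⟨u, h5, h6, h7⟩ := H.dl x h1 c h2 d (IsConj.refl d) c' h2' h4.symm h3.symm h3'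
    obtain ⟨v, h8, h9, h10⟩ := H.dl x h1 u h5 c' h2' y h1' h6 h7 h4'
    exact ⟨v, h8, fun e => h (e ▸ h10), fun e => h (e ▸ h9), h9.symm, h10⟩

theorem sq {x : G} (hx : x ∈ conjugatesOf d) : x * x = 1 := by
  obtain ⟨g, rfl⟩ := isConj_iff.1 hx
  rw [conj_mul, H.d2, mul_one, mul_inv_cancel]

theorem ne_one {x : G} (hx : x ∈ conjugatesOf d) : x ≠ 1 := by
  rintro rfl
  exact H.d1 (isConj_one_left.1 hx)

theorem tt : IsTT (E0 d) := by
  refine ⟨⟨fun x hx => orderOf_eq_prime (pow_two x ▸ H.sq hx.1) (H.ne_one hx.1), fun x hx y hy => ?_⟩,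
    fun x hx y hy => ?_⟩ <;> obtain ⟨c, hc, a, L, ⟨x, rfl⟩, y, rfl⟩ := H.near hx hy
  exacts [L.rep.three x y, L.rep.map_act x y ▸ H.sub L hc ⟨_, rfl⟩]

theorem cen {x g : G} (hx : x ∈ E0 d) (h : Commute g x) : g ∈ Subgroup.normalizer (E0 d) := by
  have key : ∀ g, Commute g x → ∀ y ∈ E0 d, g * y * g⁻¹ ∈ E0 d := fun g h y hy => by
    obtain ⟨c, hc, a, L, h1, h2⟩ := H.near hx hy
    refine H.cls (H.cls hx (conj_mem_conjugatesOf g c hc.1) ?_) (conj_mem_conjugatesOf g y hy.1)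
      ((Commute.conj_iff g).2 ((L.mem y).1 h2).2.2)
    have := (Commute.conj_iff g).2 ((L.mem x).1 h1).2.2.symm
    rwa [h.eq, mul_inv_cancel_right] at this
  exact Subgroup.mem_set_normalizer_iff.2 fun y =>
    ⟨key g h y, fun k => by simpa [mul_assoc] using key _ h.inv_left _ k⟩

theorem trn {x y : G} (hx : x ∈ E0 d) (hy : y ∈ E0 d) : ∃ g ∈ Subgroup.closure (E0 d), g * x * g⁻¹ = y := by
  obtain ⟨c, hc, a, L, ⟨x, rfl⟩, y, rfl⟩ := H.near hx hy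
  obtain ⟨g, hg, e⟩ := Rep_exists_conj L.rep H.prim.conn x y
  exact ⟨g, Subgroup.closure_mono (H.sub L hc) hg, e⟩

theorem emb (c : E0 d) : haveI := H.tt; ∃ φ : Emb Y (E0 d), Set.range φ.f = dperp c := by
  have := H.tt
  obtain ⟨a, L⟩ := H.loc c c.2.1
  refine ⟨⟨fun y => ⟨a y, H.sub L c.2 ⟨y, rfl⟩⟩, fun x y e => L.inj (congrArg Subtype.val e),
    fun x y => Subtype.ext (L.rep.map_act x y)⟩, Set.ext fun x => ?_⟩
  rw [mem_dperp, IsTT.com_iff, ne_eq, Subtype.ext_iff]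
  exact (exists_congr fun y => Subtype.ext_iff).trans ((L.mem x).trans (and_iff_right x.2.1))

theorem exists_ncom {x : G} (hx : x ∈ E0 d) : ∃ y ∈ E0 d, ¬ Commute x y := by
  obtain ⟨c, hc, a, L, ⟨x, rfl⟩, -⟩ := H.near hx hx
  have := H.prim.nontrivial
  obtain ⟨y, hy⟩ := H.prim.conn.exists_ncom x
  exact ⟨_, H.sub L hc ⟨y, rfl⟩, mt L.rep.commute_iff.1 hy⟩

variable [Finite G]

theorem primE (h : haveI := H.tt; ∃ x : E0 d, Rigid x) : haveI := H.tt; Prim (E0 d) := by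
  have := H.tt
  obtain ⟨x, hx⟩ := h
  have hc : Conn (E0 d) := fun x y => by
    obtain ⟨g, hg, e⟩ := H.trn x.2 y.2
    exact ⟨closurePerm _ ⟨g, hg⟩, range_closurePerm.le ⟨⟨g, hg⟩, rfl⟩, Subtype.ext e⟩
  obtain ⟨z, hz⟩ := hx.2.2
  have : Nontrivial (E0 d) := ⟨x, z, ne_of_ncom hz⟩
  refine prim_of hc (hx.vTriv hc) (hx.wTriv hc) fun x y => ?_
  obtain ⟨c, h1, a, L, h2, h3⟩ := H.near x.2 y.2
  exact (Relation.ReflTransGen.single (b := (⟨c, h1⟩ : E0 d)) (IsTT.com_iff.2 ((L.mem _).1 h2).2.2.symm)).tail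
    (IsTT.com_iff.2 ((L.mem _).1 h3).2.2)

theorem comp [Finite Y] (hn : haveI := H.tt; T22 (E0 d)) : Cp (conjugatesOf d) (E0 d) := by
  have := H.tt
  have tc := @tt_commute_mul_iff _ _ _ H.tt.set
  refine ⟨fun _ h => h.1, H.tt, fun _ hx _ => H.cls hx, fun _ hx _ => H.cen hx, fun x hx y =>
    ⟨IsConj.trans (IsConj.symm hx), IsConj.trans hx⟩, fun _ hx _ hy => (H.trn hx hy).imp fun _ h =>
      ⟨IsTT.closure_le_normalizer h.1, h.2⟩, fun z hz h2 => ?_, ?_,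
    fun a ha b hb c hc e he h1 h2 h3 h4 => ?_, fun a ha b hb h1 h2 => ?_, ?_,
    fun a ha b hb f hf h1 h2 h3 h4 h5 h6 => ?_⟩
  · obtain ⟨x, hx⟩ := fix22 hn (normPerm_mem_Aut ⟨z, hz⟩) (by
      rw [← map_mul, ← map_one (normPerm (E0 d))]; exact congrArg _ (Subtype.ext h2))
    exact ⟨x, x.2, mul_inv_eq_iff_eq_mul.1 (congrArg Subtype.val hx)⟩
  · rintro _ ⟨u, hu, v, hv, h1, h2, rfl⟩ h3
    obtain ⟨a, L⟩ := H.loc u hu.1
    obtain ⟨y, rfl⟩ := (L.mem v).2 ⟨hv.1, h1.symm, h2⟩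
    obtain ⟨x, e⟩ := (L.mem _).2 ⟨h3, fun e => H.ne_one hv.1 (by simpa using e), (Commute.refl u).mul_right h2⟩
    exact L.ne x y (e.trans h2.eq)
  · by_contra h5
    rw [not_or] at h5
    obtain ⟨A, L⟩ := H.loc a ha.1
    obtain ⟨b, rfl⟩ := (L.mem b).2 ⟨hb.1, h1.symm, h2⟩
    obtain ⟨c, rfl⟩ := (L.mem c).2 ⟨hc.1, h5.1, h3⟩
    have h6 : A c * e * (A c * e) = 1 := by
      rw [← h4, ← pow_two, sq_of_commute (H.sq ha.1) (H.sq hb.1) h2]
    refine h5.2 (congrArg A (H.prim.vTriv _ _ (H.prim.conn.vr_of_imp fun z hz => ?_)).symm)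
    refine (L.rep.commute_iff.1 (tc hc he (H.sub L ha ⟨z, rfl⟩) (fun e1 => h1 ?_) ?_
      (commute_of_invol_sq (H.sq hc.1) (H.sq he.1) (pow_two (A c * e) ▸ h6))).1).symm
    · rwa [← e1, H.sq hc.1, mul_eq_one_iff_eq_inv, tt_inv H.tt.set hb] at h4
    · exact h4 ▸ ((L.mem _).1 ⟨z, rfl⟩).2.2.symm.mul_right (L.rep.commute_iff.2 hz).symm
  · obtain ⟨A, L⟩ := H.loc a ha.1
    obtain ⟨b, rfl⟩ := (L.mem b).2 ⟨hb.1, h1.symm, h2⟩
    obtain ⟨x, l, l1, l2, l3⟩ := L.rel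
    obtain ⟨k, hk, rfl⟩ := H.prim.conn x b
    obtain ⟨w, -, rfl⟩ := exists_wp_of_innOn (InnOn_univ (X := Y) ▸ hk)
    have h3 : ∀ y, Commute a (A y) := fun y => ((L.mem _).1 ⟨y, rfl⟩).2.2
    have h4 := l1.map (wp_mem_Aut w)
    refine ⟨a :: ((x :: l).map (wp w)).map A, by simpa using l2.add_one.add_one, ?_, fun y hy => ?_⟩
    · have : Commute a (w.map A).prod := Commute.list_prod_right _ _ fun y hy => by
        obtain ⟨y, -, rfl⟩ := List.mem_map.1 hy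
        exact h3 y
      rw [List.prod_cons, List.map_map, show A ∘ wp w = (MulAut.conj (w.map A).prod).toMonoidHom ∘ A from
        funext fun y => (Rep_conj L.rep w y).symm, ← List.map_map, ← map_list_prod, l3]
      simp [← this.eq, H.sq ha.1]
    · rcases List.mem_cons.1 hy with rfl | hy
      · refine ⟨ha, Commute.refl _, h3 _, fun z hz => ?_⟩
        rcases List.mem_cons.1 hz with rfl | hz
        · exact Commute.refl _
        · obtain ⟨z, -, rfl⟩ := List.mem_map.1 hz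
          exact h3 z
      · obtain ⟨y, hy', rfl⟩ := List.mem_map.1 hy
        refine ⟨H.sub L ha ⟨y, rfl⟩, (h3 y).symm, L.rep.commute_iff.2 (h4 y hy' _ List.mem_cons_self),
          fun z hz => ?_⟩
        rcases List.mem_cons.1 hz with rfl | hz
        · exact (h3 y).symm
        · obtain ⟨z, hz', rfl⟩ := List.mem_map.1 hz
          exact L.rep.commute_iff.2 (h4 y hy' z hz')
  · obtain ⟨A, L⟩ := H.loc d (IsConj.refl d)
    have := H.prim.nontrivial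
    obtain ⟨h1, h2, h3⟩ := (L.mem _).1 ⟨Classical.arbitrary Y, rfl⟩
    exact ⟨_, d, Glob.d_mem, _, H.cls Glob.d_mem h1 h3, h2.symm, h3, rfl⟩
  · obtain ⟨A, L⟩ := H.loc a ha.1
    obtain ⟨b, rfl⟩ := (L.mem b).2 ⟨hb.1, h1.symm, h4⟩
    obtain ⟨f, rfl⟩ := (L.mem f).2 ⟨hf.1, h2, h5.symm⟩
    obtain ⟨s, s1, s2, s3⟩ := L.hx b f (fun e => h3 (e ▸ rfl)) (L.rep.commute_iff.1 h6).symm
    have hs := (L.mem _).1 ⟨s, rfl⟩
    refine ⟨A s, H.sub L ha ⟨s, rfl⟩, hs.2.1, hs.2.2.symm, L.rep.commute_iff.2 s1, L.rep.commute_iff.2 s2,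
      fun f' a1 a2 a3 a4 a5 a6 a7 ⟨u, hu, v, hv, b1, b2, b3⟩ => ?_⟩
    obtain ⟨f', rfl⟩ := (L.mem f').2 ⟨a1.1, a2, a4.symm⟩
    have h7 := tc hu hv ha b1 (b3 ▸ (((Commute.refl a).mul_right h4).mul_right h5.symm).mul_right a4.symm) b2
    have h8 : ∀ u ∈ E0 d, Commute a u → u ∈ insert a (Set.range A) := fun u hu h => by
      by_cases e : u = a
      exacts [Or.inl e, Or.inr ((L.mem u).2 ⟨hu.1, e, h⟩)]
    exact (s3 f' (fun e => a3 (e ▸ rfl)) (L.rep.commute_iff.1 a5) (L.rep.commute_iff.1 a6)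
      (L.rep.commute_iff.1 a7) ⟨u, h8 u hu h7.1, v, h8 v hv h7.2, b1, b2, b3⟩).mono
      (Set.insert_subset ha (H.sub L ha))

end Gb

theorem Gb.t22 [Finite G] {d : G} (H : Gb T6 d) : haveI := H.tt; T22 (E0 d) := by
  have := H.tt
  obtain ⟨φ, hφ⟩ := H.emb ⟨d, Glob.d_mem⟩
  obtain ⟨x, hx⟩ := rigid_of_q0 ⟨Emb.ofIso (φ.isoRange _ hφ), fun y => Or.inl ((φ.isoRange _ hφ).surjective y)⟩
  exact ⟨H.primE ⟨_, hx.up⟩, H.emb⟩

/-- A simple group whose class of involutions looks locally like the class of `Fi₂₂`. -/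
theorem glob {G : Type*} [Group G] [Finite G] [IsSimpleGroup G] {d : G} {a : U6.T6 → G} (d2 : d * d = 1)
    (d1 : d ≠ 1) (hR : FT.Rl d a) (h : ∀ x, x ∈ Set.range a ↔ x ∈ conjugatesOf d ∧ x ≠ d ∧ Commute d x) :
    Cfsg.Spor.IsoFi22 G := by
  have L := Lc.all ⟨hR, h⟩
  have H : Gb T6 d := ⟨prim_T6, wide_T6, d2, d1, L, Lc.dl_of L fun r hr a L' p hp h1 x y h2 =>
    dom1 (L'.secSub (fun _ _ => sectAt_T6) L hr hp h1) h2 y⟩
  have := H.tt
  have C := (H.comp H.t22).eq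
  have cj : ∀ g : G, ∀ x ∈ E0 d, g * x * g⁻¹ ∈ E0 d := C ▸ conj_mem_conjugatesOf
  have N : (Subgroup.closure (E0 d)).Normal := ⟨fun n hn g => by
    have := Subgroup.mem_map_of_mem (MulAut.conj g).toMonoidHom hn
    rw [MonoidHom.map_closure] at this
    exact Subgroup.closure_mono (by rintro _ ⟨x, hx, rfl⟩; exact cj g x hx) this⟩
  obtain ⟨f, hf, -⟩ := Fi.exists_hom22 ⟨H.tt.set, cj, N.eq_bot_or_eq_top.resolve_left fun k =>
    d1 (k.le (Subgroup.subset_closure Glob.d_mem))⟩ ((Subgroup.Normal.eq_bot_or_eq_top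
      inferInstance).resolve_right fun k => let ⟨y, _, n⟩ := H.exists_ncom Glob.d_mem
        n (Subgroup.mem_center_iff.1 (k.ge (Subgroup.mem_top y)) d)) H.t22
  exact ⟨(MulEquiv.ofBijective f (equiv_of_simple Fi22P.simple hf)).symm⟩

end Cfsg.Lib.Spor.U62
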