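import Cfsg.Agent.Spor.S22D
import Cfsg.Agent.Known.Fi24Cent

/-! Automorphisms of the double cover of `U₆(2)`. -/

set_option autoImplicit false
set_option maxRecDepth 100000

namespace Cfsg.Lib.Spor.U62

open TQ U6 FT Equiv Subgroup

/-- a word in the diagonal and the field automorphism -/
def pw (w : List Bool) : Perm T6 := (w.map fun b => cond b δ2 σ).prod

/-- the action of a word on codes -/
def apw (w : List Bool) (y : ℕ) : ℕ := List.rec y (fun b _ ih => fN ih fun v => cond b (dl2 2 v) (sg v)) w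

theorem val_pw (w : List Bool) (y : T6) : (pw w y).1 = apw w y.1 := by
  induction w with
  | nil => rfl
  | cons b w ih =>
    show (cond b δ2 σ (pw w y)).1 = fN (apw w y.1) fun v => cond b (dl2 2 v) (sg v)
    rw [fN_eq, ← ih]
    cases b <;> rfl

theorem pw_aut (w : List Bool) : pw w ∈ Aut T6 := list_prod_mem fun x hx => by
  obtain ⟨b, -, rfl⟩ := List.mem_map.1 hx
  cases b
  exacts [σ_mem, δ2_mem]

theorem pw_append (v w : List Bool) : pw (v ++ w) = pw v * pw w := by simp [pw]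

/-- six coset representatives -/
def φw (i : ℕ) : List Bool :=
  List.getD [[], [false], [true], [true, false], [true, true], [true, true, false]] i []

theorem conj_inn {c k : Perm T6} (hc : c ∈ Aut T6) (hk : k ∈ TQ.Inn T6) : c * k * c⁻¹ ∈ TQ.Inn T6 :=
  (Iso.ofAut hc).permCongr_mem_Inn hk

theorem tinj : Function.Injective (toPerm : T6 → Perm T6) := Prim.toPerm_inj prim_T6

theorem eq_one_of_comm {s : Perm T6} (h : s ∈ Aut T6) (hc : ∀ y, Commute s (toPerm y)) : s = 1 :=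
  Equiv.ext fun y => tinj (by rw [← Aut.conj h, (hc y).eq, mul_inv_cancel_right]; rfl)

variable {H : Type*} [Group H] {d : H} {π : H →* Perm T6} {a : T6 → H}

theorem prod_pw (h : Pl d a) {w : List Bool} {R : List ℕ}
    (hR : allL R (fun y => isPt y && inW (apw w y)) = true) :
    (((R.map pD).map (pw w)).map a).prod = el (gk 9 d a) 10 (xs (R.map (apw w))) := by
  simp only [allL_iff, Bool.and_eq_true] at hR
  rw [← h.aw_eq (List.forall_mem_map.2 fun y hy => (hR y hy).2), aw]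
  refine congrArg (fun l : List T6 => (l.map a).prod) ?_
  rw [List.map_map, List.map_map]
  refine List.map_congr_left fun y hy => ?_
  show pw w (pD y) = pD (apw w y)
  rw [← pD_val (pw w _), val_pw, val_pD (hR y hy).1]

theorem chk_dist : allN 6 (fun i => allN 6 fun j => Nat.beq i j || List.any [[], [true], [true, true]] fun u =>
    List.any [[5, 80, 1280, 1365, 1455, 1530], [5, 80, 1280, 1370, 1445, 1535]] fun R =>
      allL R (fun y => isPt y && inW (apw (u ++ φw i) y)) && allL R (fun y => isPt y && inW (apw (u ++ φw j) y)) &&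
      ((Nat.beq (xs (R.map (apw (u ++ φw i)))) 0 && Nat.beq (xs (R.map (apw (u ++ φw j)))) 512) ||
      (Nat.beq (xs (R.map (apw (u ++ φw i)))) 512 && Nat.beq (xs (R.map (apw (u ++ φw j)))) 0))) = true := by
  decide +kernel

theorem dist' (h : N22 d π a) {i j : ℕ} (hi : i < 6) (hj : j < 6) {k : Perm T6} (hk : k ∈ TQ.Inn T6)
    (e : pw (φw j) = k * pw (φw i)) : i = j := by
  have := allN_iff.1 (allN_iff.1 chk_dist i hi) j hj
  simp only [Bool.or_eq_true, Nat.beq_eq, List.any_eq_true, Bool.and_eq_true] at this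
  refine this.resolve_right fun ⟨u, _, R, _, ⟨h1, h2⟩, h3⟩ => ?_
  obtain ⟨g, hg⟩ := h.sur _ (conj_inn (pw_aut u) hk)
  have h4 := h.conj_prod g ((R.map pD).map (pw (u ++ φw i)))
  rw [List.map_map (g := π g), ← Perm.coe_mul, hg, show pw u * k * (pw u)⁻¹ * pw (u ++ φw i) = pw (u ++ φw j) by
    rw [pw_append, pw_append, e]; group, prod_pw h.pl h1, prod_pw h.pl h2] at h4
  rcases h3 with ⟨a1, a2⟩ | ⟨a1, a2⟩ <;> rw [a1, a2, el_zero, Pl.el_d] at h4
  · exact h.d1 (by rw [← h4]; group)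
  · exact h.d1 (conj_eq_one_iff.1 h4)

open S22 in
theorem dist {i j : ℕ} (hi : i < 6) (hj : j < 6) {k : Perm T6} (hk : k ∈ TQ.Inn T6)
    (e : pw (φw j) = k * pw (φw i)) : i = j :=
  let ⟨_, _, _, _, _, _, M⟩ := S22.ex_m22
  dist' M.toN22 hi hj hk e

theorem pw_one : pw (φw 1) = σ := mul_one σ

theorem σ_not : σ ∉ TQ.Inn T6 := fun h =>
  absurd (dist (i := 0) (j := 1) (by decide) (by decide) h (pw_one.trans (mul_one σ).symm)) (by decide)

theorem card_out : Nat.card (Out (TQ.Inn T6)) = 6 := by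
  obtain ⟨e⟩ := nonempty_psu_inn (K := Class.GF4) Class.card_GF4
  rw [← Known.u62_out]
  exact Nat.card_congr (QuotientGroup.congr _ _ (MulAut.congr e.symm) (by
    ext β
    constructor
    · rintro ⟨_, ⟨x, rfl⟩, rfl⟩
      exact ⟨e.symm x, by ext1 y; simp⟩
    · rintro ⟨y, rfl⟩
      exact ⟨_, ⟨e y, rfl⟩, by ext1 z; simp⟩)).toEquiv

theorem aut_inn (θ : MulAut (TQ.Inn T6)) :
    ∃ k ∈ TQ.Inn T6, ∃ i < 6, ∀ x, (θ x : Perm T6) = k * pw (φw i) * x * (k * pw (φw i))⁻¹ := by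
  have hn : ∀ w, pw w ∈ normalizer (TQ.Inn T6 : Set (Perm T6)) := fun w =>
    mem_normalizer_fintype fun k hk => conj_inn (pw_aut w) hk
  let ι : ℕ → MulAut (TQ.Inn T6) := fun i => (TQ.Inn T6).normalizerMonoidHom ⟨_, hn (φw i)⟩
  have hι : ∀ i x, (ι i x : Perm T6) = pw (φw i) * x * (pw (φw i))⁻¹ := fun _ _ => rfl
  let F : Fin 6 → Out (TQ.Inn T6) := fun i => (((ι i)⁻¹ : MulAut _) : Out _)
  have key : ∀ (β : MulAut (TQ.Inn T6)) i, ((β⁻¹ : MulAut _) : Out _) = F i → ∃ k ∈ TQ.Inn T6,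
      ∀ x, (β x : Perm T6) = k * pw (φw i) * x * (k * pw (φw i))⁻¹ := fun β i e => by
    obtain ⟨k, hk⟩ := QuotientGroup.eq.1 e
    refine ⟨k, k.2, fun x => ?_⟩
    have := congrArg (fun γ : MulAut (TQ.Inn T6) => (γ (ι i x) : Perm T6)) hk
    simp only [inv_inv, MulAut.mul_apply, MulAut.inv_apply_self, MulAut.conj_apply, coe_mul, coe_inv, hι] at this
    rw [← this]; group
  have : Finite (Out (TQ.Inn T6)) := Nat.finite_of_card_ne_zero (by rw [card_out]; decide)
  have inj : Function.Injective F := fun i j e => by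
    obtain ⟨k, hk, e1⟩ := key _ _ e
    refine Fin.ext (dist j.2 i.2 hk ?_).symm
    rw [← inv_mul_eq_one]
    refine eq_one_of_comm (mul_mem (inv_mem (pw_aut _)) (mul_mem (Inn_le_Aut hk) (pw_aut _))) fun y => ?_
    have := e1 ⟨_, toPerm_mem_Inn y⟩
    rw [hι] at this
    rw [commute_iff_eq, ← mul_inv_eq_iff_eq_mul, mul_inv_rev, ← mul_assoc, mul_assoc _ _ (toPerm y), mul_assoc _ _ (_ * _)⁻¹,
      ← this]
    group
  obtain ⟨i, e⟩ := ((Nat.bijective_iff_injective_and_card F).2 ⟨inj, by rw [card_out]; simp⟩).2 (θ⁻¹ : MulAut _)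
  obtain ⟨k, hk, e1⟩ := key _ _ e.symm
  exact ⟨k, hk, i, i.2, e1⟩

/-- the inner automorphisms and the field automorphism -/
def Γ : Subgroup (Perm T6) := TQ.Inn T6 ⊔ zpowers σ

theorem Γ_le : Γ ≤ Aut T6 := sup_le Inn_le_Aut (zpowers_le.2 σ_mem)

theorem inn_le : TQ.Inn T6 ≤ Γ := le_sup_left

theorem σ_Γ : σ ∈ Γ := mem_sup_right (mem_zpowers σ)

theorem σ_sq : σ * σ = 1 := Equiv.ext fun x => σ.left_inv x

theorem par {x : Perm T6} (h : x ∈ Γ) : x ∈ TQ.Inn T6 ∨ σ * x ∈ TQ.Inn T6 :=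
  step_mem (fun _ hk => conj_inn σ_mem hk) σ_sq h

theorem two_odd {x y : Perm T6} (hx : x ∈ Γ) (hy : y ∈ Γ) (h1 : x ∉ TQ.Inn T6) (h2 : y ∉ TQ.Inn T6) :
    x * y ∈ TQ.Inn T6 := by
  have := mul_mem (conj_inn σ_mem ((par hx).resolve_left h1)) ((par hy).resolve_left h2)
  rwa [show σ * (σ * x) * σ⁻¹ * (σ * y) = σ * σ * (x * y) by group, σ_sq, one_mul] at this

theorem chk_tw : ∀ i < 6, allL [5, 80, 85, 90, 95] (fun y => isPt y && inW (apw (φw i) y)) = true ∧
    xs ([5, 80, 85, 90, 95].map (apw (φw i))) = 512 ∧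
    allL [5, 80, 1280, 1365, 1455, 1530] (fun y => isPt y && inW (apw (φw i) y)) = true ∧
    (i < 2 ∨ xs ([5, 80, 1280, 1365, 1455, 1530].map (apw (φw i))) = 512) := by decide +kernel

theorem aut (h : N22 d π a) (θ : MulAut H) (hθ : θ d = d) : ∃ s ∈ Γ, ∀ y, θ (a y) = a (s y) := by
  let ρ : H →* TQ.Inn T6 := π.codRestrict _ h.mem
  have hρ : Function.Surjective ρ := fun ⟨k, hk⟩ => let ⟨g, e⟩ := h.sur k hk; ⟨g, Subtype.ext e⟩
  have hk : ∀ x, x ∈ ρ.ker ↔ x = 1 ∨ x = d := fun x => Subtype.ext_iff.trans (h.ker x)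
  let e := QuotientGroup.quotientKerEquivOfSurjective ρ hρ
  let β : MulAut (TQ.Inn T6) := MulAut.congr e (QuotientGroup.congr ρ.ker ρ.ker θ (by
    ext x
    obtain ⟨x, rfl⟩ := θ.surjective x
    rw [show θ x ∈ map (θ : H →* H) ρ.ker ↔ x ∈ ρ.ker from mem_map_iff_mem θ.injective, hk, hk, θ.map_eq_one_iff]
    conv_rhs => rw [← hθ, θ.injective.eq_iff]))
  have hβ : ∀ x, β (ρ x) = ρ (θ x) := fun x => by
    rw [show ρ x = e x from rfl]
    simp only [β, MulAut.congr_apply, MulEquiv.trans_apply, MulEquiv.symm_apply_apply]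
    rfl
  obtain ⟨k, hk, i, hi, h1⟩ := aut_inn β
  obtain ⟨g, rfl⟩ := h.sur k hk
  let θ' := MulAut.conj g⁻¹ * θ
  have h2 : ∀ x, π (θ' x) = pw (φw i) * π x * (pw (φw i))⁻¹ := fun x => by
    have := h1 (ρ x)
    rw [hβ] at this
    change π (θ x) = π g * pw (φw i) * π x * _ at this
    change π (g⁻¹ * θ x * g⁻¹⁻¹) = _
    rw [map_mul, map_mul, map_inv, inv_inv, this]
    group
  have h3 : θ' d = d := (congrArg (g⁻¹ * · * g⁻¹⁻¹) hθ).trans (h.conj_d _)
  obtain ⟨c, c1, c2⟩ : ∃ c, (c = 1 ∨ c = d) ∧ θ' (a (pD 5)) = a (pw (φw i) (pD 5)) * c :=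
    (h.eq_or (by rw [h2, h.πa, h.πa, Aut.conj (pw_aut _)])).elim
      (fun e => ⟨1, Or.inl rfl, e.trans (mul_one _).symm⟩) fun e => ⟨d, Or.inr rfl, e⟩
  have c3 : ∀ x, Commute x c := fun x => c1.elim (· ▸ Commute.one_right x) (· ▸ h.cen x)
  have h4 : ∀ y, θ' (a y) = a (pw (φw i) y) * c := fun y => by
    obtain ⟨k, hk, rfl⟩ := conn_T6 (pD 5) y
    obtain ⟨l, rfl⟩ := h.sur k hk
    rw [← h.eqv, map_mul, map_mul, map_inv, c2, ← conj_mul, h.eqv, (c3 _).eq, mul_inv_cancel_right, h2]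
    simp
  have h5 : ∀ l : List T6, θ' (l.map a).prod = ((l.map (pw (φw i))).map a).prod * c ^ l.length := fun l => by
    induction l with
    | nil => simp
    | cons y l ih => rw [List.map_cons, List.prod_cons, map_mul, ih, h4, List.map_cons, List.map_cons, List.prod_cons,
        List.length_cons, pow_succ', mul_assoc, mul_assoc, ← mul_assoc c, ← (c3 _).eq, mul_assoc]
  have h6 : ∀ R : List ℕ, allL R (fun y => isPt y && inW (apw (φw i) y)) = true → allL R inW = true →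
      θ' (el (gk 9 d a) 10 (xs R)) = el (gk 9 d a) 10 (xs (R.map (apw (φw i)))) * c ^ R.length := fun R a1 a2 => by
    rw [← prod_pw h.pl a1, ← h.pl.aw_eq (allL_iff.1 a2), aw, h5, List.length_map]
  obtain rfl : c = 1 := c1.resolve_right fun e => by
    have := h6 _ (chk_tw i hi).1 (by decide +kernel)
    rw [show xs [5, 80, 85, 90, 95] = 512 by decide +kernel, (chk_tw i hi).2.1, Pl.el_d,
      h3, e, h.pow_d (by decide), h.d2] at this
    exact h.d1 this
  have h7 : i < 2 := by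
    by_contra hn
    have := h6 _ (chk_tw i hi).2.2.1 (by decide +kernel)
    rw [show xs [5, 80, 1280, 1365, 1455, 1530] = 0 by decide +kernel,
      (chk_tw i hi).2.2.2.resolve_left hn, Pl.el_d, el_zero, map_one, one_pow, mul_one] at this
    exact h.d1 this.symm
  refine ⟨π g * pw (φw i), mul_mem (inn_le hk) ?_, fun y => ?_⟩
  · interval_cases i
    exacts [one_mem _, pw_one ▸ σ_Γ]
  · rw [Perm.mul_apply, ← h.eqv, ← mul_one (a (pw _ y)), ← h4]
    change _ = g * (g⁻¹ * θ (a y) * g⁻¹⁻¹) * g⁻¹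
    group

end Cfsg.Lib.Spor.U62
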