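import Cfsg.Agent.F22S.U2

/-! Standard subgroups of type `2.U₆(2)`: the centraliser has a unique involution. -/

set_option autoImplicit false

namespace Cfsg.Lib.Spor.U62

open TQ U6 FT Equiv Subgroup

variable {G : Type*} [Group G]

/-- the action of `C(z)` on the points -/
structure St (z : G) (L : Subgroup G) (hz : z ∈ L) (p : G → Perm T6) (π : L →* Perm T6) (b : T6 → L) : Prop where
  c : N22 (⟨z, hz⟩ : L) π b
  pΓ : ∀ {n}, Commute n z → p n ∈ Γ
  ev : ∀ {n}, Commute n z → ∀ y, n * b y * n⁻¹ = b (p n y)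
  nrm : ∀ {n l}, Commute n z → l ∈ L → n * l * n⁻¹ ∈ L
  tight : ∀ {k g}, k * k = 1 → k ∈ centralizer (L : Set G) → g * k * g⁻¹ ∈ centralizer (L : Set G) →
    k = 1 ∨ Commute g z

theorem exists_st [Finite G] {L : Subgroup G} (hL : IsStandardSubgroup L) (hZ : Nat.card (center L) = 2)
    (e : L ⧸ center L ≃* TQ.Inn T6) : ∃ z hz p π b, St z L hz p π b := by
  classical
  obtain ⟨⟨ζ, hζ⟩, h2⟩ := exists_prime_orderOf_dvd_card' (G := center L) 2 (by rw [hZ])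
  have h3 : ∀ x ∈ center L, x = 1 ∨ x = ζ := fun x hx => by
    obtain ⟨y, -, hy⟩ := (Nat.card_eq_two_iff' (1 : center L)).1 hZ
    refine or_iff_not_imp_left.2 fun h => congrArg Subtype.val ((hy ⟨x, hx⟩ fun e => h (congrArg Subtype.val e)).trans
      (hy ⟨ζ, hζ⟩ fun e => ?_).symm)
    rw [e, orderOf_one] at h2
    omega
  have h4 : ζ ≠ 1 := fun e => by
    rw [show (⟨ζ, hζ⟩ : center L) = 1 from Subtype.ext e, orderOf_one] at h2
    omega
  have h5 : ζ * ζ = 1 := by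
    have := pow_orderOf_eq_one (⟨ζ, hζ⟩ : center L)
    rw [h2, pow_two] at this
    exact congrArg Subtype.val this
  have P : Pre ζ ((TQ.Inn T6).subtype.comp (e.toMonoidHom.comp (QuotientGroup.mk' _))) :=
    ⟨h5, h4, fun h => mem_center_iff.1 hζ h, fun h => ((map_eq_one_iff _ (subtype_injective _)).trans
      (e.map_eq_one_iff.trans (QuotientGroup.eq_one_iff h))).trans
        ⟨h3 h, fun k => k.elim (· ▸ one_mem _) (· ▸ hζ)⟩, fun h => (e _).2, fun k hk => by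
      obtain ⟨h, e1⟩ := (e.surjective.comp (QuotientGroup.mk'_surjective _)) ⟨k, hk⟩
      exact ⟨h, congrArg Subtype.val e1⟩, hL.1.1.commutator_eq_top⟩
  obtain ⟨π, b, N⟩ := P.exists_n22
  have ht : ∀ {k g : G}, k * k = 1 → k ∈ centralizer (L : Set G) →
      g * k * g⁻¹ ∈ centralizer (L : Set G) → k = 1 ∨ g ∈ normalizer (L : Set G) := fun {k g} hk h1 h2 => by
    by_contra! e
    have := (Local.odd_card_iff_forall_not_involution _).1 (hL.2.1.2 g (hL.2.2.2 ▸ e.2)) _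
      ⟨h2, Local.conj_mem_map_conj h1⟩
    exact this (by rw [Local.orderOf_conj]; exact orderOf_eq_prime (by rwa [pow_two]) e.1)
  have hz : (ζ : G) ∈ centralizer (L : Set G) := fun l hl => congrArg Subtype.val (P.cen ⟨l, hl⟩).eq
  have hn : ∀ {x : G}, Commute x ζ → x ∈ normalizer (L : Set G) := fun {x} hx =>
    (ht (congrArg Subtype.val h5) hz (by rwa [hx.eq, mul_inv_cancel_right])).resolve_left fun e => h4 (Subtype.ext e)
  choose β h7 h8 using fun x (h : Commute x (ζ : G)) => aut N (L.normalizerMonoidHom ⟨x, hn h⟩)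
    (Subtype.ext (mul_inv_eq_iff_eq_mul.2 h.eq))
  refine ⟨ζ, ζ.2, fun x => if h : Commute x ζ then β x h else 1, π, b, N, fun hx => ?_, fun hx y => ?_,
    fun hx hl => (mem_normalizer_iff.1 (hn hx) _).1 hl, fun {k g} hk h1 h2 =>
      (ht hk h1 h2).imp_right fun hg => ?_⟩
  · rw [dif_pos hx]; exact h7 _ _
  · rw [dif_pos hx]; exact congrArg Subtype.val (h8 _ hx y)
  · rcases h3 (L.normalizerMonoidHom ⟨g, hg⟩ ζ) (characteristic_iff_map_le.1 inferInstance _ ⟨ζ, hζ, rfl⟩) with h | h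
    · exact absurd ((map_eq_one_iff _ (MulEquiv.injective _)).1 h) h4
    · exact mul_inv_eq_iff_eq_mul.1 (congrArg Subtype.val h)

variable {z : G} {L : Subgroup G} {hz : z ∈ L} {p : G → Perm T6} {π : L →* Perm T6} {b : T6 → L}

/-- the generators of the elementary abelian group -/
abbrev gA (hz : z ∈ L) (b : T6 → L) : ℕ → G := fun i => L.subtype (gk 9 (⟨z, hz⟩ : L) b i)

theorem elA (m : ℕ) : el (gA hz b) 10 m = (el (gk 9 (⟨z, hz⟩ : L) b) 10 m).1 := (map_el' L.subtype _ 10 m).symm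

theorem elA_z : el (gA hz b) 10 512 = z := (elA _).trans (congrArg Subtype.val Pl.el_d)

theorem elA_mem (m : ℕ) : el (gA hz b) 10 m ∈ L := elA (hz := hz) (b := b) m ▸ (el _ 10 m : L).2

namespace St

variable (S : St z L hz p π b)
include S

theorem z2 : z * z = 1 := congrArg Subtype.val S.c.d2

theorem z1 : z ≠ 1 := fun e => S.c.d1 (Subtype.ext e)

theorem cz {l : G} (h : l ∈ L) : Commute l z := congrArg Subtype.val (S.c.cen ⟨l, h⟩).eq

theorem cb (y : T6) : Commute (b y : G) z := S.cz (b y).2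

theorem b_inj {x y : T6} (h : (b x : G) = b y) : x = y := S.c.inj tinj (Subtype.ext h)

theorem b_inv (y : T6) : (b y : G)⁻¹ = b y := congrArg Subtype.val (S.c.inv y)

theorem res (l : L) : p l = π l :=
  Equiv.ext fun y => S.b_inj ((S.ev (S.cz l.2) y).symm.trans (congrArg Subtype.val (S.c.eqv l y)))

theorem mul {x y : G} (hx : Commute x z) (hy : Commute y z) : p (x * y) = p x * p y :=
  Equiv.ext fun u => S.b_inj (by rw [← S.ev (hx.mul_left hy), Perm.mul_apply, ← S.ev hx, ← S.ev hy]; group)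

theorem p_one : p 1 = 1 := (S.res 1).trans (map_one π)

theorem p_z : p z = 1 := (S.res ⟨z, hz⟩).trans S.c.πd

theorem pb (y : T6) : p (b y) = toPerm y := (S.res _).trans (S.c.πa y)

theorem p_inv {x : G} (h : Commute x z) : p x⁻¹ = (p x)⁻¹ :=
  eq_inv_of_mul_eq_one_left (by rw [← S.mul h.inv_left h, inv_mul_cancel, S.p_one])

theorem p_conj {n x : G} (h : Commute n z) (h' : Commute x z) : p (n * x * n⁻¹) = p n * p x * (p n)⁻¹ := by
  rw [S.mul (h.mul_left h') h.inv_left, S.mul h h', S.p_inv h]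

theorem p_com {x y : G} (h : Commute x z) (h' : Commute y z) (c : Commute x y) : Commute (p x) (p y) := by
  rw [Commute, SemiconjBy, ← S.mul h h', ← S.mul h' h, c.eq]

theorem p_sq {x : G} (h : Commute x z) (h2 : x * x = 1) : p x * p x = 1 := by rw [← S.mul h h, h2, S.p_one]

theorem p_mem {l : G} (h : l ∈ L) : p l ∈ TQ.Inn T6 := (S.res ⟨l, h⟩).symm ▸ S.c.mem _

theorem com_b {n : G} (h : Commute n z) {y : T6} : Commute n (b y) ↔ p n y = y :=
  ⟨fun c => S.b_inj ((S.ev h y).symm.trans (mul_inv_eq_iff_eq_mul.2 c.eq)),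
    fun c => mul_inv_eq_iff_eq_mul.1 (by rw [S.ev h, c])⟩

theorem p_cent {k : G} (h : k ∈ centralizer (L : Set G)) : p k = 1 :=
  Equiv.ext fun y => (S.com_b (h z hz).symm).1 (h _ (b y).2).symm

theorem mem_cent {n : G} (h : Commute n z) (e : p n = 1) : n ∈ centralizer (L : Set G) := fun l hl =>
  mem_centralizer_singleton_iff.1 (show (⟨l, hl⟩ : L) ∈ (centralizer {n}).subgroupOf L from (closure_le _).2 (by
    rintro _ ⟨y, rfl⟩
    exact mem_centralizer_singleton_iff.2 ((S.com_b h).2 (by rw [e]; rfl)).symm) (S.c.gen.ge (mem_top _)))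

theorem z_cent : z ∈ centralizer (L : Set G) := fun _ hl => S.cz hl

theorem nrmK {n k : G} (h : Commute n z) (hk : k ∈ centralizer (L : Set G)) :
    n * k * n⁻¹ ∈ centralizer (L : Set G) := fun l hl => by
  simpa [mul_assoc] using ((Commute.conj_iff n).2 (show Commute _ _ from hk _ (S.nrm h.inv_left hl))).eq

theorem split {n : G} (h : Commute n z) (h2 : n * n = 1) (e : p n ∈ TQ.Inn T6) : ∃ l : L, l * l = 1 ∧ π l = p n ∧
    (∀ x : L, Commute (x : G) n ↔ Commute x l) ∧ ∃ k ∈ centralizer (L : Set G), k * k = 1 ∧ n = l * k := by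
  obtain ⟨l, e1⟩ := S.c.sur _ e
  have h1 := sq_of S.c (x := l) (by rw [e1, S.p_sq h h2])
  have h3 := S.mem_cent ((S.cz l.2).inv_left.mul_left h) (by
    rw [S.mul (S.cz l.2).inv_left h, S.p_inv (S.cz l.2), S.res, e1, inv_mul_cancel])
  obtain ⟨k, rfl⟩ : ∃ k, n = l * k := ⟨(l : G)⁻¹ * n, by simp⟩
  rw [inv_mul_cancel_left] at h3
  refine ⟨l, h1, e1, fun x => ⟨fun c => Subtype.ext ?_, fun c => ?_⟩, k, h3, ?_, rfl⟩
  · simpa using (c.mul_right (show Commute (x : G) k from h3 _ x.2).inv_right).eq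
  · exact Commute.mul_right (congrArg Subtype.val c.eq) (h3 _ x.2)
  · rwa [(show Commute (l : G) k from h3 _ l.2).symm.mul_mul_mul_comm, show (l : G) * l = 1 from
      congrArg Subtype.val h1, one_mul] at h2

theorem pull {g k : G} (hk : k ∈ centralizer (L : Set G)) (h2 : k * k = 1) (h1 : k ≠ 1) {n : G}
    (h : Commute n (g * k * g⁻¹)) : Commute n (g * z * g⁻¹) := by
  have h3 : Commute (g⁻¹ * n * g) k := (Commute.conj_iff g).1 (by simpa [mul_assoc] using h)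
  have := (S.tight (g := g⁻¹ * n * g) h2 hk (by rwa [h3.eq, mul_inv_cancel_right])).resolve_left h1
  simpa [mul_assoc] using (Commute.conj_iff g).2 this

theorem p_ne {g k : G} (hg : ¬ Commute g z) (hk : k ∈ centralizer (L : Set G)) (h2 : k * k = 1) (h1 : k ≠ 1)
    (h : Commute (g * k * g⁻¹) z) : p (g * k * g⁻¹) ≠ 1 := fun e =>
  hg ((S.tight h2 hk (S.mem_cent h e)).resolve_left h1)

omit S in
theorem cq {g k : G} (h : k * k = 1) : g * k * g⁻¹ * (g * k * g⁻¹) = 1 := by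
  rw [conj_mul, h, mul_one, mul_inv_cancel]

theorem kz {k : G} (hk : k ∈ centralizer (L : Set G)) (h2 : k * k = 1) (n2 : k ≠ z) :
    k * z ∈ centralizer (L : Set G) ∧ k * z * (k * z) = 1 ∧ k * z ≠ 1 :=
  ⟨mul_mem hk S.z_cent, pow_two (k * z) ▸ sq_of_commute h2 S.z2 (hk z hz).symm,
    fun e => n2 (by rw [← mul_one k, ← S.z2, ← mul_assoc, e, one_mul])⟩

theorem cA : CI (gA hz b) 10 := S.c.pl.c10.map L.subtype

theorem indA : Ind (gA hz b) 10 := (S.c.ov.ind S.c.d1).map L.subtype_injective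

theorem bW {i : ℕ} (h : i < 21) : (b (wpt i) : G) = el (gA hz b) 10 (fld CT 12 i) := by rw [elA, S.c.pl.cd i h]

theorem nrmW {s w : G} (cs : Commute s z) (cw : Commute w z) (s2 : s * s = 1) (w2 : w * w = 1) (c : Commute s w) :
    ∃ u ∈ L, ∀ x, x = s ∨ x = w → ∃ t < 2 ^ 7, (t.testBit 0 = true ↔ p x ∉ TQ.Inn T6) ∧
      ∀ i < 21, p (u * x * u⁻¹) (wpt i) = wpt (PT 7 t i) := by
  have hc : CI (fun i => if i = 0 then p s else p w) 2 := by
    refine ⟨fun i _ => ?_, fun i _ j _ => ?_⟩ <;> split_ifs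
    exacts [S.p_sq cs s2, S.p_sq cw w2, Commute.refl _, S.p_com cs cw c, S.p_com cw cs c.symm, Commute.refl _]
  obtain ⟨k, hk, h⟩ := nfW (hc.sub_le fun i _ => by split_ifs; exacts [S.pΓ cs, S.pΓ cw]) hc.ea.pgroup
  obtain ⟨u, rfl⟩ := S.c.sur k hk
  refine ⟨u, u.2, ?_⟩
  rintro x (rfl | rfl)
  · rw [S.p_conj (S.cz u.2) cs, S.res]
    exact h _ ⟨2 ^ 0, by decide, el_two_pow _ (by decide)⟩
  · rw [S.p_conj (S.cz u.2) cw, S.res]
    exact h _ ⟨2 ^ 1, by decide, el_two_pow _ (by decide)⟩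

/-- the codes of commutators -/
def Mc (s : G) (m : ℕ) : Prop := ∃ v ∈ S.cA.sub, v * s * v⁻¹ = el (gA hz b) 10 m * s

theorem Mc.xor {s : G} (m n : ℕ) (h : S.Mc s m) (h' : S.Mc s n) : S.Mc s (m ^^^ n) := by
  obtain ⟨v, hv, e⟩ := h
  obtain ⟨v', hv', e'⟩ := h'
  refine ⟨v' * v, mul_mem hv' hv, ?_⟩
  rw [S.cA.el_xor, mul_assoc (el _ _ _), ← e', show v' * v * s * (v' * v)⁻¹ = v' * (v * s * v⁻¹) * v'⁻¹ by group, e,
    ← mul_assoc, (S.cA.sub_comm hv' (S.cA.el_mem_sub m)).eq]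
  simp only [mul_assoc]

theorem Mc.com {s : G} (s2 : s * s = 1) {m : ℕ} (h : S.Mc s m) : Commute (el (gA hz b) 10 m) s := by
  obtain ⟨v, -, e⟩ := h
  have := inv_eq_of_mul_eq_one_right (cq (g := v) s2)
  rw [e, mul_inv_rev, S.cA.el_inv, inv_eq_of_mul_eq_one_right s2] at this
  exact this.symm

theorem oddM {s : G} (cs : Commute s z) (s2 : s * s = 1) {t : ℕ} (ht : t < 2 ^ 7) (h0 : t.testBit 0 = true)
    (h : ∀ i < 21, p s (wpt i) = wpt (PT 7 t i)) :
    (∀ e < 2 ^ 7, ¬ e.testBit 0 = true → e ≠ 0 → ∃ i < 21, PT 7 t i = i ∧ PT 7 e i ≠ i) ∧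
    ∀ E : ℕ → Prop, (∀ m n, S.Mc s m → S.Mc s n → ¬ E m → ¬ E n → E (m ^^^ n)) →
      ∃ m < 2 ^ 10, ∃ n < 2 ^ 10, m ≠ 0 ∧ n ≠ 0 ∧ m ≠ n ∧ S.Mc s m ∧ S.Mc s n ∧ E m ∧ E n := by
  have lt := fun i (hi : i < 21) => (el_W le_rfl t hi).1
  obtain ⟨h1, i, hi, j, hj, k, hk, h2⟩ := odd_spec ht h0 fun i hi => wpt_inj (lt _ (lt i hi)) hi (by
    rw [← h _ (lt i hi), ← h i hi, ← Perm.mul_apply, S.p_sq cs s2]; rfl)
  have h3 : ∀ i < 21, S.Mc s (cc t i) := fun i hi => ⟨_, S.cA.el_mem_sub (fld CT 12 i), by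
    rw [cc, Nat.xor_eq, S.cA.el_xor, ← S.bW hi, ← S.bW (lt i hi), ← h i hi, ← S.ev cs, S.b_inv]; group⟩
  exact ⟨h1, fun E hE => pick (Mc.xor S) hE h2 (h3 i hi) (h3 j hj) (h3 k hk)⟩

variable [Finite G]

theorem no4I {g k : G} (hg : ¬ Commute g z) (c : Commute (g * z * g⁻¹) z) (hk : k ∈ centralizer (L : Set G))
    (h2 : k * k = 1) (n1 : k ≠ 1) (n2 : k ≠ z) (h : Commute (g * k * g⁻¹) z) (he : p (g * k * g⁻¹) ∈ TQ.Inn T6) :
    False := by
  obtain ⟨l, l2, e1, h3, -⟩ := S.split h (cq h2) he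
  have h4 : ∀ x : L, Commute x l → Commute (x : G) (g * z * g⁻¹) := fun x hx => S.pull hk h2 n1 ((h3 x).2 hx)
  obtain ⟨l', l2', e1', h3', -⟩ := S.split c (cq S.z2) (ev_of S.c l2 (S.pΓ c) (S.p_sq c (cq S.z2)) fun x hx =>
    S.res x ▸ S.p_com (S.cz x.2) c (h4 x hx))
  obtain ⟨a1, a2, a3⟩ := S.kz hk h2 n2
  rcases cent2 S.c l2 l2' fun x hx => (h3' x).1 (h4 x hx) with e | e | e
  · exact S.p_ne hg hk h2 n1 h (e1 ▸ e)
  · exact S.p_ne hg S.z_cent S.z2 S.z1 c (e1' ▸ e)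
  · rw [map_mul, e1, e1', ← S.mul h c, conj_mul] at e
    exact S.p_ne hg a1 a2 a3 (conj_mul (b := g) ▸ h.mul_left c) e

theorem no4 {g k : G} (hg : ¬ Commute g z) (c : Commute (g * z * g⁻¹) z) (hk : k ∈ centralizer (L : Set G))
    (h2 : k * k = 1) (h : Commute (g * k * g⁻¹) z) : k = 1 ∨ k = z := by
  by_contra! n
  obtain ⟨a1, a2, a3⟩ := S.kz hk h2 n.2
  have a4 : Commute (g * (k * z) * g⁻¹) z := conj_mul (b := g) ▸ h.mul_left c
  have o1 := S.no4I hg c hk h2 n.1 n.2 h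
  have o2 := two_odd (S.pΓ h) (S.pΓ a4) o1 (S.no4I hg c a1 a2 a3 (by simpa using n.1) a4)
  rw [← S.mul h a4, conj_mul, ← mul_assoc k, h2, one_mul] at o2
  obtain ⟨u, hu, h3⟩ := S.nrmW c h (cq S.z2) (cq h2) ((Commute.conj_iff g).2 (hk z hz))
  obtain ⟨e, e1, e2, e3⟩ := h3 _ (Or.inl rfl)
  obtain ⟨t, t1, t2, t3⟩ := h3 _ (Or.inr rfl)
  have q : ∀ x, u * (g * x * g⁻¹) * u⁻¹ = u * g * x * (u * g)⁻¹ := fun x => by group
  have cu := S.cz hu
  have c' := (cu.mul_left c).mul_left cu.inv_left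
  have h' := (cu.mul_left h).mul_left cu.inv_left
  have hg' : ¬ Commute (u * g) z := fun a => hg (by simpa using cu.inv_left.mul_left a)
  rw [q] at e3 t3 c' h'
  generalize u * g = g' at e3 t3 c' h' hg'
  obtain ⟨b1, b2⟩ := S.oddM h' (cq h2) t1 (t2.2 o1) t3
  obtain rfl : e = 0 := by
    by_contra e0
    obtain ⟨i, hi, i1, i2⟩ := b1 e e1 (fun a => e2.1 a o2) e0
    refine i2 (wpt_inj (el_W le_rfl e hi).1 hi ?_)
    rw [← e3 i hi, ← S.com_b c']
    exact (S.pull hk h2 n.1 ((S.com_b h').2 (by rw [t3 i hi, i1])).symm).symm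
  have b3 : ∀ v ∈ S.cA.sub, Commute (g'⁻¹ * v * g') z := fun v hv => (Commute.conj_iff g').1 (by
    rw [show g' * (g'⁻¹ * v * g') * g'⁻¹ = v by group]
    exact mem_centralizer_singleton_iff.1 (S.cA.sub_le (K := centralizer {g' * z * g'⁻¹})
      (fun i _ => mem_centralizer_singleton_iff.2 (by
        unfold gA gk; split_ifs with hi
        exacts [((S.com_b c').2 (e3 i (by omega))).symm, c'.symm])) hv))
  have b4 : ∀ m < 2 ^ 10, m ≠ 0 → S.Mc (g' * k * g'⁻¹) m → g'⁻¹ * el (gA hz b) 10 m * g' = z :=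
    fun m hm m0 ⟨v, hv, e⟩ => by_contra fun a => by
      have q : g' * (g'⁻¹ * el (gA hz b) 10 m * g') * g'⁻¹ = el (gA hz b) 10 m := by group
      refine S.no4I (k := g'⁻¹ * el (gA hz b) 10 m * g') hg' c' ?_ ?_ (fun a => m0 (S.indA m hm ?_)) a
        (q.symm ▸ S.cz (elA_mem m)) (q.symm ▸ S.p_mem (elA_mem m))
      · convert mul_mem (S.nrmK (b3 v hv) hk) (inv_mem hk) using 1
        rw [eq_mul_inv_of_mul_eq e.symm]; group
      · simpa using cq (g := g'⁻¹) (S.cA.el_sq m)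
      · rw [← q, a]; group
  obtain ⟨m, hm, m', hm', m0, m0', ne, M, M', -⟩ := b2 (fun _ => True) fun _ _ _ _ _ _ => trivial
  exact ne (S.cA.inj S.indA hm hm' (by simpa using (b4 m hm m0 M).trans (b4 m' hm' m0' M').symm))

end St

end Cfsg.Lib.Spor.U62
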