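import Cfsg.Agent.F22S.U3
import Cfsg.Agent.F22S.Glob
import Cfsg.Agent.Block.ZStar
import Cfsg.Agent.Local.InvCent

/-! Simple groups with a standard subgroup of type `2.U₆(2)`. -/

set_option autoImplicit false
set_option maxRecDepth 100000

namespace Cfsg.Lib.Spor.U62

open TQ U6 FT Equiv Subgroup

variable {G : Type*} [Group G] {z : G} {L : Subgroup G} {hz : z ∈ L} {p : G → Perm T6} {π : L →* Perm T6}
  {b : T6 → L}

/-- `x * z` is an even conjugate of `z` -/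
structure Qv (z : G) (p : G → Perm T6) (x : G) : Prop where
  c : Commute x z
  e : p x ∈ TQ.Inn T6
  n : x ≠ 1
  s : x * x = 1
  j : IsConj z (x * z)

namespace St

variable (S : St z L hz p π b)
include S

theorem odd4 {g : G} (c : Commute (g * z * g⁻¹) z) (ho : p (g * z * g⁻¹) ∉ TQ.Inn T6) :
    ∃ x y, Qv z p x ∧ Qv z p y ∧ Qv z p (x * y) := by
  obtain ⟨u, hu, h3⟩ := S.nrmW c c (cq S.z2) (cq S.z2) (Commute.refl _)
  obtain ⟨t, t1, t2, t3⟩ := h3 _ (Or.inl rfl)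
  have cu := S.cz hu
  have c' := (cu.mul_left c).mul_left cu.inv_left
  rw [show u * (g * z * g⁻¹) * u⁻¹ = u * g * z * (u * g)⁻¹ by group] at t3 c'
  generalize u * g = g at t3 c'
  have q : ∀ m, g * (g⁻¹ * el (gA hz b) 10 m * g) * g⁻¹ = el (gA hz b) 10 m := fun m => by group
  have x : ∀ m n, g⁻¹ * el (gA hz b) 10 (m ^^^ n) * g =
      g⁻¹ * el (gA hz b) 10 m * g * (g⁻¹ * el (gA hz b) 10 n * g) := fun m n => by rw [S.cA.el_xor]; group
  have h1 : ∀ m, S.Mc (g * z * g⁻¹) m → Commute (g⁻¹ * el (gA hz b) 10 m * g) z := fun m h =>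
    (Commute.conj_iff g).1 (by rw [q]; exact h.com S (cq S.z2))
  have h2 : ∀ m < 2 ^ 10, m ≠ 0 → S.Mc (g * z * g⁻¹) m → p (g⁻¹ * el (gA hz b) 10 m * g) ∈ TQ.Inn T6 →
      Qv z p (g⁻¹ * el (gA hz b) 10 m * g) := fun m hm m0 h e => by
    refine ⟨h1 m h, e, fun a => m0 (S.indA m hm (by rw [← q, a]; group)), by
      simpa using cq (g := g⁻¹) (S.cA.el_sq m), ?_⟩
    obtain ⟨v, -, e1⟩ := h
    exact isConj_iff.2 ⟨g⁻¹ * v * g, by rw [eq_mul_inv_of_mul_eq e1.symm]; group⟩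
  obtain ⟨m, hm, n, hn, m0, n0, ne, M, N, E, F⟩ := (S.oddM c' (cq S.z2) t1 (t2.2 ho) t3).2
    (fun m => p (g⁻¹ * el (gA hz b) 10 m * g) ∈ TQ.Inn T6) fun m n M N E F => by
      rw [x, S.mul (h1 m M) (h1 n N)]
      exact two_odd (S.pΓ (h1 m M)) (S.pΓ (h1 n N)) E F
  refine ⟨_, _, h2 m hm m0 M E, h2 n hn n0 N F, x m n ▸ h2 _ (Nat.xor_lt_two_pow hm hn)
    (mt Nat.eq_of_xor_eq_zero ne) (Mc.xor S m n M N) ?_⟩
  rw [x, S.mul (h1 m M) (h1 n N)]
  exact mul_mem E F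

theorem qv {x : G} (h : Qv z p x) : x * z ≠ z ∧ Commute (x * z) z ∧ p (x * z) ∈ TQ.Inn T6 :=
  ⟨by simpa using h.n, h.c.mul_left (Commute.refl z), by
    rw [S.mul h.c (Commute.refl z), S.p_z, mul_one]; exact h.e⟩

variable [Finite G]

theorem memL {x : G} (h : IsConj z x) (n : x ≠ z) (c : Commute x z) (e : p x ∈ TQ.Inn T6) : x ∈ L := by
  obtain ⟨g, rfl⟩ := isConj_iff.1 h
  obtain ⟨l, -, -, h1, k, hk, k2, e1⟩ := S.split c (cq S.z2) e
  have cj : ∀ x : G, Commute x (g * z * g⁻¹) → Commute (g⁻¹ * x * g⁻¹⁻¹) z := fun x h =>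
    (Commute.conj_iff g).1 (by simpa [mul_assoc] using h)
  rw [e1]
  exact mul_mem l.2 ((S.no4 (g := g⁻¹) (fun a => n (mul_inv_eq_iff_eq_mul.2 (by simpa using a.inv_left.eq)))
    (cj _ c.symm) hk k2 (cj k (e1 ▸ (show Commute (l : G) k from hk _ l.2).symm.mul_right (Commute.refl k)))).elim
      (· ▸ one_mem _) (· ▸ hz))

theorem exists_L [IsSimpleGroup G] (hG : ¬ IsMulCommutative G) : ∃ l ∈ L, l ≠ z ∧ IsConj z l := by
  have o2 : orderOf z = 2 := orderOf_eq_prime ((pow_two z).trans S.z2) S.z1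
  obtain ⟨g, c, n⟩ : ∃ g, Commute z (g * z * g⁻¹) ∧ g * z * g⁻¹ ≠ z := by
    by_contra! h
    have := Block.Princ.zstar_center ⟨o2, h⟩ (Local.oddCore_eq_bot_of_isSimpleGroup o2)
    rcases (inferInstance : (center G).Normal).eq_bot_or_eq_top with e | e
    exacts [S.z1 (e.le this), hG ⟨⟨fun x y => mem_center_iff.1 (e.ge (mem_top y)) x⟩⟩]
  by_cases h : p (g * z * g⁻¹) ∈ TQ.Inn T6
  · exact ⟨_, S.memL (isConj_iff.2 ⟨g, rfl⟩) n c.symm h, n, isConj_iff.2 ⟨g, rfl⟩⟩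
  · obtain ⟨x, -, hx, -⟩ := S.odd4 c.symm h
    obtain ⟨h1, h2, h3⟩ := S.qv hx
    exact ⟨_, S.memL hx.j h1 h2 h3, h1, hx.j⟩

theorem uniq {l : G} (hl : l ∈ L) (n : l ≠ z) (h : IsConj z l) {k : G} (hk : k ∈ centralizer (L : Set G))
    (k2 : k * k = 1) : k = 1 ∨ k = z := by
  obtain ⟨g, rfl⟩ := isConj_iff.1 h
  have cj : ∀ x : G, Commute x (g * z * g⁻¹) → Commute (g⁻¹ * x * g⁻¹⁻¹) z := fun x h =>
    (Commute.conj_iff g).1 (by simpa [mul_assoc] using h)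
  exact S.no4 (g := g⁻¹) (fun a => n (mul_inv_eq_iff_eq_mul.2 (by simpa using a.inv_left.eq)))
    (cj _ (S.cz hl).symm) hk k2 (cj k (show Commute _ k from hk _ hl).symm)

theorem big_le (hK : ∀ k ∈ centralizer (L : Set G), k * k = 1 → k = 1 ∨ k = z) {B : Subgroup G}
    (h1 : ∀ x ∈ B, Commute x z) (h2 : ∀ x ∈ B, x * x = 1) (h3 : 2 ^ 10 ≤ Nat.card B) : B ≤ L := fun a ha => by
  let f : B →* Perm T6 := MonoidHom.mk' (fun x => p x) fun x y => S.mul (h1 x x.2) (h1 y y.2)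
  have h4 : Nat.card f.ker ≤ 2 := by
    refine (Nat.card_le_card_of_injective (β := ({1, z} : Set G)) (fun x : f.ker => ⟨x.1.1,
      hK _ (S.mem_cent (h1 _ x.1.2) x.2) (h2 _ x.1.2)⟩) fun x y e =>
      Subtype.ext (Subtype.ext (Subtype.mk.inj e))).trans ?_
    rw [Nat.card_coe_set_eq, Set.ncard_pair S.z1.symm]
  have h5 := f.ker.card_mul_index
  rw [index_ker] at h5
  have h6 := odd_small (B := f.range) (by rintro _ ⟨x, rfl⟩; exact S.pΓ (h1 x x.2))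
    (by rintro _ ⟨x, rfl⟩; exact S.p_sq (h1 x x.2) (h2 x x.2)) (by nlinarith) ⟨⟨a, ha⟩, rfl⟩
  obtain ⟨l, -, -, -, k, hk, k2, e⟩ := S.split (h1 a ha) (h2 a ha) h6
  rw [e]
  exact mul_mem l.2 ((hK k hk k2).elim (· ▸ one_mem _) (· ▸ hz))

omit [Finite G] in
theorem subA : S.cA.sub = S.c.pl.A.map L.subtype := Subgroup.ext fun _ =>
  ⟨fun ⟨m, hm, h⟩ => ⟨_, ⟨m, hm, rfl⟩, (elA m).symm.trans h⟩, fun ⟨_, ⟨m, hm, rfl⟩, h⟩ => ⟨m, hm, (elA m).trans h⟩⟩

theorem fus (hK : ∀ k ∈ centralizer (L : Set G), k * k = 1 → k = 1 ∨ k = z) :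
    Fus S.cA 512 1 20 (fL F10) rp22 (fL F8) rl22 := by
  have inj := L.subtype_injective
  have h := S.c
  refine ⟨⟨by decide +kernel, by decide +kernel, by decide +kernel, by decide +kernel⟩, S.indA,
    fun T B h1 h2 h3 h4 h5 h6 => ?_, fun n hn m hm h1 h2 => ?_, fun m hm => ?_, fun m hm => ?_⟩
  · rw [S.cA.card_sub S.indA] at h6
    rw [S.subA] at h3 ⊢
    rw [elA_z] at h1
    have h7 := map_subgroupOf_eq_of_le (S.big_le hK (fun x hx => mem_centralizer_singleton_iff.1 (h1 (h4 hx)))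
      h5.sq h6)
    rw [← h7, ju' h (S := T.subgroupOf L) (B := B.subgroupOf L) h2.comap_subtype (map_le_iff_le_comap.1 h3)
      (comap_mono h4) ⟨fun x hx => Subtype.ext (h5.sq _ hx), fun x hx y hy => Subtype.ext (h5.com _ hx _ hy)⟩
      (by rwa [← h7, card_map_of_injective inj] at h6)]
  · obtain ⟨i, hi, rfl⟩ := (ty2_iff hm).1 h1
    rw [elA_z] at hn
    rw [← S.bW hi, S.ev hn] at h2 ⊢
    obtain ⟨j, hj, e⟩ := inW_iff'.1 (inW_of_com fun j hj => h.commute_iff.1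
      (Subtype.ext (S.cA.sub_comm h2 (S.bW hj ▸ S.cA.el_mem_sub _))))
    exact ⟨_, (wc_spec hj).2.2.1, (ty2_iff (wc_spec hj).2.2.1).2 ⟨j, hj, rfl⟩, e ▸ S.bW hj⟩
  · obtain ⟨u, -, e⟩ := forest_conj (K := ⊤) chk_F10 (r := fun j => aw b (rt j))
      (fun j hj => ⟨trivial, h.pl.conj_el (chkT_LT hj)⟩) m hm
    exact ⟨u, by rw [elA_z]; exact S.cz u.2, by rw [elA, elA, ← e]; rfl⟩
  · have e : ∀ j < 10, ∀ m, (aw b (rt j)).1 * el (gA hz b) 10 m * (aw b (rt j)).1⁻¹ =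
        el (gA hz b) 10 (lin (LT j) 12 10 m) := fun j hj m => by
      rw [elA, elA, ← h.pl.conj_el (chkT_LT hj)]; rfl
    obtain ⟨u, ⟨⟨a1, a2⟩, a3⟩, e1⟩ := forest_conj (K := normalizer (S.cA.sub : Set G) ⊓ L ⊓
      centralizer {el (gA hz b) 10 1}) chk_F8 (r := fun j => (aw b (rt j)).1) (fun j hj =>
        ⟨⟨⟨S.cA.mem_normalizer (e j (by omega)), (aw b (rt j)).2⟩, mem_centralizer_singleton_iff.2
          (mul_inv_eq_iff_eq_mul.1 ((e j (by omega) 1).trans (congrArg _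
            ((by decide +kernel : ∀ j < 8, lin (LT j) 12 10 1 = 1) j hj))))⟩, e j (by omega)⟩) m hm
    exact ⟨u, a1, by rw [elA_z]; exact S.cz a2, mem_centralizer_singleton_iff.1 a3, e1⟩

theorem delta {l : G} (hl : l ∈ L) (n : l ≠ z) (hc : IsConj z l) {m : ℕ} (hm : m < 2 ^ 10) :
    IsConj z (el (gA hz b) 10 m) ↔ fL F10 m = 1 ∨ fL F10 m = 2 := by
  have F := S.fus fun _ => S.uniq hl n hc
  have h := S.c
  have h1 := F.kill22 (L := [2, 4, 8, 16, 32, 64, 128, 215, 249, 256, 335, 370, 492, 539, 613, 687, 828, 902,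
    945, 986]) (by decide +kernel) (by decide +kernel) (q1 := 2) (q2 := 8) (q3 := 16) (q4 := 539)
    (by decide +kernel) (by decide) (by decide)
  obtain ⟨s, h2, h3, h4⟩ := F.delta (ok := [2, 6, 10, 126]) (by decide +kernel) (by
    obtain ⟨g, rfl⟩ := isConj_iff.1 hc
    obtain ⟨u, m, hm, h3⟩ := h.invol (x := ⟨_, hl⟩) (Subtype.ext (cq S.z2))
    refine ⟨m, hm, ?_, ?_⟩
    · rintro rfl
      rw [Pl.el_d, eq_mul_inv_iff_mul_eq, ← (h.cen u).eq, mul_right_inj] at h3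
      exact n (congrArg Subtype.val h3).symm
    · rw [elA_z, elA, h3]
      exact isConj_iff.2 ⟨u * g, by simp [mul_assoc]⟩)
  rw [h4 _ (by decide), F.ty_t] at h1
  have h5 := h4 m hm
  rw [elA_z] at h5
  obtain rfl : s = 6 := by
    simp only [List.mem_cons, List.not_mem_nil, or_false] at h2
    rcases h2 with rfl | rfl | rfl | rfl
    exacts [absurd rfl h3, rfl, absurd (by decide) h1, absurd (by decide) h1]
  refine h5.trans ?_
  have := (F.t1 hm).2.2.2.1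
  generalize fL F10 m = j at this
  interval_cases j <;> decide

theorem pts {l : G} (hl : l ∈ L) (n : l ≠ z) (hc : IsConj z l) {x : G} (h1 : IsConj z x) (h2 : x ≠ z)
    (c : Commute x z) (e : p x ∈ TQ.Inn T6) : ∃ y, (b y : G) = x := by
  have h := S.c
  have hx := S.memL h1 h2 c e
  obtain ⟨u, m, hm, h3⟩ := h.invol (x := ⟨x, hx⟩) (Subtype.ext (by
    obtain ⟨g, rfl⟩ := isConj_iff.1 h1
    exact cq S.z2))
  have h4 : (⟨x, hx⟩ : L) = u⁻¹ * el (gk 9 ⟨z, hz⟩ b) 10 m * u⁻¹⁻¹ := by rw [h3]; group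
  rcases (S.delta hl n hc hm).1 (by rw [elA, h3]; exact h1.trans (isConj_iff.2 ⟨u, rfl⟩)) with h5 | h5
  · rw [((S.fus fun _ => S.uniq hl n hc).t1 hm).2.1.1 h5, Pl.el_d, h.conj_d] at h4
    exact absurd (congrArg Subtype.val h4) h2
  · obtain ⟨i, hi, rfl⟩ := (ty2_iff hm).1 h5
    rw [← h.pl.cd i hi, h.eqv] at h4
    exact ⟨_, (congrArg Subtype.val h4).symm⟩

theorem even {l : G} (hl : l ∈ L) (n : l ≠ z) (hc : IsConj z l) {x : G} (h1 : IsConj z x) (c : Commute x z) :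
    p x ∈ TQ.Inn T6 := by
  by_contra ho
  obtain ⟨g, rfl⟩ := isConj_iff.1 h1
  obtain ⟨x, y, hx, hy, hw⟩ := S.odd4 c ho
  have k : ∀ {x}, Qv z p x → ∃ u, toPerm u = p x ∧ (b u : G) = x * z := fun h =>
    let ⟨u, e⟩ := S.pts hl n hc h.j (S.qv h).1 (S.qv h).2.1 (S.qv h).2.2
    ⟨u, by rw [← S.pb, e, S.mul h.c (Commute.refl z), S.p_z, mul_one], e⟩
  obtain ⟨u, u1, u2⟩ := k hx
  obtain ⟨v, v1, v2⟩ := k hy
  obtain ⟨w, w1, w2⟩ := k hw
  have cm : Commute x y := by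
    rw [commute_iff_eq, ← inv_eq_of_mul_eq_one_right hw.s, mul_inv_rev, inv_eq_of_mul_eq_one_right hx.s,
      inv_eq_of_mul_eq_one_right hy.s]
  have k2 : ∀ {u v : T6} {x y}, (b u : G) = x * z → (b v : G) = y * z → Commute x z → Commute y z → Commute x y →
      u ⫫ v := fun a1 a2 a3 a4 a5 => S.c.commute_iff.1 (Subtype.ext (by
        simp only [coe_mul, a1, a2]
        exact (a5.mul_right a3).mul_left (a4.symm.mul_right (Commute.refl z))))
  have k3 : ∀ {u v : T6} {x y}, (b u : G) = x * z → (b v : G) = y * z → x ≠ y → u ≠ v := fun a1 a2 a3 e =>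
    a3 (mul_right_cancel (a1.symm.trans (e ▸ a2)))
  obtain ⟨q, hq⟩ := conn_T6.exists_ncom u
  refine hq (fix3 (k2 u2 v2 hx.c hy.c cm) (k2 u2 w2 hx.c hw.c ((Commute.refl x).mul_right cm))
    (k2 v2 w2 hy.c hw.c (cm.symm.mul_right (Commute.refl y))) (k3 u2 v2 fun e => hw.n (e ▸ hx.s))
    (k3 u2 w2 (by simpa using hy.n)) (k3 v2 w2 (by simpa using hx.n)) ?_).1
  change (toPerm u * toPerm v * toPerm w) q = q
  rw [u1, v1, w1, ← S.mul hx.c hy.c, S.p_sq hw.c hw.s]; rfl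

end St

theorem main [Finite G] [IsSimpleGroup G] (hG : ¬ IsMulCommutative G) {L : Subgroup G}
    (hL : IsStandardSubgroup L) (hZ : Nat.card (center L) = 2) (e : L ⧸ center L ≃* TQ.Inn T6) :
    Cfsg.Spor.IsoFi22 G := by
  obtain ⟨z, hz, p, π, b, S⟩ := exists_st hL hZ e
  obtain ⟨l, hl, n, hc⟩ := S.exists_L hG
  refine glob S.z2 S.z1 (S.c.rl.map L.subtype_injective) fun x => ⟨?_, fun ⟨h1, h2, h3⟩ =>
    S.pts hl n hc h1 h2 h3.symm (S.even hl n hc h1 h3.symm)⟩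
  rintro ⟨y, rfl⟩
  refine ⟨?_, fun e => (S.c.ne_of_ker conn_T6.exists_ncom y).2 (Subtype.ext e), (S.cb y).symm⟩
  obtain ⟨u, e⟩ := S.c.exists_conj conn_T6 (wpt 0) y
  have := (S.delta hl n hc (wc_spec (i := 0) (by decide)).2.2.1).2 (Or.inr (by decide +kernel))
  rw [← S.bW (by decide)] at this
  exact this.trans (isConj_iff.2 ⟨u, congrArg Subtype.val e⟩)

end Cfsg.Lib.Spor.U62
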